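import Mathlib
import Cfsg.Agent.S5961
import Cfsg.Agent.Lib.ElusiveCore

/-!
# Totally isotropic invariant subspaces: the odd case
-/

set_option autoImplicit false
set_option linter.unusedSimpArgs false
set_option linter.unusedVariables false
set_option linter.unusedSectionVars false

namespace Cfsg.Agent.Lib.SpTI

open Module Polynomial Cfsg.Agent.Lib.IsomBlock

universe u

variable {F : Type*} [Field F] {V : Type u} [AddCommGroup V] [Module F V]
variable {B : V →ₗ[F] V →ₗ[F] F} {T : V →ₗ[F] V}

/-- Totally isotropic subspaces. -/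
def TI (B : V →ₗ[F] V →ₗ[F] F) (W : Submodule F V) : Prop := ∀ a ∈ W, ∀ b ∈ W, B a b = 0

theorem ti_bot : TI B ⊥ := by
  intro a ha b hb
  rw [Submodule.mem_bot] at ha
  rw [ha, map_zero, LinearMap.zero_apply]

theorem TI.mono {W W' : Submodule F V} (h : TI B W) (hle : W' ≤ W) : TI B W' := fun a ha b hb => h a (hle ha) b (hle hb)

theorem anti_of_alt (halt : ∀ v, B v v = 0) (a b : V) : B a b = - B b a := by
  have h1 := halt (a + b)
  simp only [map_add, LinearMap.add_apply, halt, zero_add, add_zero] at h1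
  linear_combination h1

theorem ti_sup (halt : ∀ v, B v v = 0) {W W' : Submodule F V} (h : TI B W) (h' : TI B W') (horth : ∀ a ∈ W, ∀ b ∈ W', B a b = 0) : TI B (W ⊔ W') := by
  intro x hx y hy
  obtain ⟨a, ha, b, hb, rfl⟩ := Submodule.mem_sup.mp hx
  obtain ⟨c, hc, e, he, rfl⟩ := Submodule.mem_sup.mp hy
  simp only [map_add, LinearMap.add_apply, h a ha c hc, horth a ha e he, h' b hb e he, add_zero, zero_add]
  rw [anti_of_alt halt, horth c hc b hb, neg_zero]

theorem inv_sup {W W' : Submodule F V} (h : InvOn T W) (h' : InvOn T W') : InvOn T (W ⊔ W') := by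
  intro z hz
  obtain ⟨x, hx, y, hy, rfl⟩ := Submodule.mem_sup.mp hz
  rw [map_add]
  exact Submodule.add_mem_sup (h x hx) (h' y hy)

theorem inv_bot : InvOn T ⊥ := by
  intro z hz
  rw [Submodule.mem_bot] at hz ⊢
  rw [hz, map_zero]

variable [FiniteDimensional F V]

/-- Totally isotropic subspaces of every possible dimension. -/
theorem exists_ti_sub (halt : ∀ v, B v v = 0) : ∀ (b : ℕ) (U : Submodule F V), NDOn B U → 2 * b ≤ finrank F U →
    ∃ W ≤ U, TI B W ∧ finrank F W = b := by
  intro b
  induction b with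
  | zero =>
    intro U hU hle
    exact ⟨⊥, bot_le, ti_bot, by simp⟩
  | succ b ih =>
    intro U hU hle
    have hB : GoodForm B := Or.inl halt
    have hbot : U ≠ ⊥ := by
      rintro rfl
      rw [finrank_bot] at hle
      omega
    obtain ⟨u, hu, hu0⟩ := (Submodule.ne_bot_iff U).mp hbot
    obtain ⟨w, hw, huw⟩ : ∃ w ∈ U, B u w ≠ 0 := by
      by_contra hall
      apply hu0
      apply hU u hu
      intro w hw
      by_contra hne
      exact hall ⟨w, hw, hne⟩
    have hanti := anti_of_alt halt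
    let P : Submodule F V := Submodule.span F (Set.range ![u, w])
    have hli : LinearIndependent F ![u, w] := by
      rw [LinearIndependent.pair_iff]
      intro a b hab
      have h1 := congrArg (fun y => B y w) hab
      have h2 := congrArg (fun y => B y u) hab
      simp only [map_add, map_smul, LinearMap.add_apply, LinearMap.smul_apply, halt, smul_eq_mul, mul_zero, add_zero, zero_add, map_zero, LinearMap.zero_apply] at h1 h2
      rw [hanti w u] at h2
      have ha : a = 0 := (mul_eq_zero.mp h1).resolve_right huw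
      have hb : b = 0 := by
        have h3 : b * B u w = 0 := by linear_combination -h2
        exact (mul_eq_zero.mp h3).resolve_right huw
      exact ⟨ha, hb⟩
    have hPfin : finrank F P = 2 := by
      have := finrank_span_eq_card hli
      simpa using this
    have hmemP : ∀ y ∈ P, ∃ a b : F, y = a • u + b • w := by
      intro y hy
      simp only [P, Matrix.range_cons, Matrix.range_empty, Set.union_empty, Set.singleton_union] at hy
      obtain ⟨a, b, rfl⟩ := Submodule.mem_span_pair.mp hy
      exact ⟨a, b, rfl⟩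
    have huP : u ∈ P := Submodule.subset_span ⟨0, rfl⟩
    have hwP : w ∈ P := Submodule.subset_span ⟨1, rfl⟩
    have hPU : P ≤ U := by
      apply Submodule.span_le.mpr
      rintro _ ⟨i, rfl⟩
      fin_cases i
      · exact hu
      · exact hw
    have hPnd : NDOn B P := by
      intro y hy h0
      obtain ⟨a, b, rfl⟩ := hmemP y hy
      have h1 := h0 w hwP
      have h2 := h0 u huP
      simp only [map_add, map_smul, LinearMap.add_apply, LinearMap.smul_apply, halt, smul_eq_mul, mul_zero, add_zero, zero_add] at h1 h2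
      rw [hanti w u] at h2
      have ha : a = 0 := (mul_eq_zero.mp h1).resolve_right huw
      have hb : b = 0 := by
        have h3 : b * B u w = 0 := by linear_combination -h2
        exact (mul_eq_zero.mp h3).resolve_right huw
      rw [ha, hb]
      simp
    have hU'fin := finrank_rel hB hPU hPnd
    obtain ⟨W', hW'U, hW'ti, hW'fin⟩ := ih (U ⊓ perp B P) (nd_rel hB hPU hPnd hU) (by omega)
    let L : Submodule F V := Submodule.span F {u}
    have hLfin : finrank F L = 1 := finrank_span_singleton hu0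
    have hLP : L ≤ P := by
      apply Submodule.span_le.mpr
      rintro _ rfl
      exact huP
    have hLti : TI B L := by
      intro x hx y hy
      obtain ⟨a, rfl⟩ := Submodule.mem_span_singleton.mp hx
      obtain ⟨c, rfl⟩ := Submodule.mem_span_singleton.mp hy
      simp only [map_smul, LinearMap.smul_apply, halt, smul_eq_mul, mul_zero]
    have horth : ∀ a ∈ L, ∀ b ∈ W', B a b = 0 := fun a ha b hb => (hW'U hb).2 a (hLP ha)
    have hdisj : L ⊓ W' = ⊥ := by
      have h1 := disjoint_of_orth hB hPnd (W' := W') (fun a ha b hb => (hW'U hb).2 a ha)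
      exact (h1.mono_left hLP).eq_bot
    refine ⟨L ⊔ W', sup_le (hLP.trans hPU) (hW'U.trans inf_le_left), ti_sup halt hLti hW'ti horth, ?_⟩
    have h1 := Submodule.finrank_sup_add_finrank_inf_eq L W'
    rw [hdisj, finrank_bot, add_zero, hLfin, hW'fin] at h1
    omega

/-- Bound for totally isotropic subspaces. -/
theorem ti_bound (halt : ∀ v, B v v = 0) (hnd : ∀ v, (∀ w, B v w = 0) → v = 0) {W : Submodule F V} (hW : TI B W) :
    2 * finrank F W ≤ finrank F V := by
  have hanti := anti_of_alt halt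
  have hN : LinearMap.BilinForm.Nondegenerate (B : LinearMap.BilinForm F V) := by
    constructor
    · intro u hu
      exact hnd u hu
    · intro u hu
      apply hnd u
      intro w
      rw [hanti, hu w, neg_zero]
  have h1 := LinearMap.BilinForm.finrank_orthogonal hN W
  have hle : W ≤ LinearMap.BilinForm.orthogonal (B : LinearMap.BilinForm F V) W := by
    intro v hv
    rw [LinearMap.BilinForm.mem_orthogonal_iff]
    intro w hw
    exact hW w hw v hv
  have h2 := Submodule.finrank_mono hle
  have h3 := Submodule.finrank_le W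
  omega

section block

variable [Fintype F] {r q : ℕ}

/-- An irreducible factor of the cyclotomic polynomial killing a vector of an invariant subspace. -/
theorem exists_factor_in {W : Submodule F V} (hW : InvOn T W) : ∀ (n : ℕ) (P : F[X]), P.natDegree = n → P ≠ 0 → ∀ w ∈ W, w ≠ 0 → aeval T P w = 0 →
    ∃ h : F[X], Irreducible h ∧ h ∣ P ∧ ∃ w' ∈ W, w' ≠ 0 ∧ aeval T h w' = 0 := by
  intro n
  induction n using Nat.strong_induction_on with
  | _ n ih =>
    intro P hn hP w hwW hw h0
    have hnu : ¬ IsUnit P := by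
      intro hu
      obtain ⟨Q, hQ⟩ := hu.exists_right_inv
      apply hw
      have h1 : aeval T (Q * P) w = w := by
        rw [mul_comm, hQ, map_one]
        rfl
      rw [aeval_mul_apply, h0, map_zero] at h1
      exact h1.symm
    obtain ⟨h, hh, g, rfl⟩ := WfDvdMonoid.exists_irreducible_factor hnu hP
    have hg0 : g ≠ 0 := right_ne_zero_of_mul hP
    by_cases hy : aeval T g w = 0
    · have hlt : g.natDegree < n := by
        rw [← hn, natDegree_mul hh.ne_zero hg0]
        have := hh.natDegree_pos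
        omega
      obtain ⟨h', hh', hd, w', hw'W, hw', hk⟩ := ih _ hlt g rfl hg0 w hwW hw hy
      exact ⟨h', hh', hd.trans (Dvd.intro_left _ rfl), w', hw'W, hw', hk⟩
    · refine ⟨h, hh, Dvd.intro _ rfl, _, inv_aeval T hW g hwW, hy, ?_⟩
      rw [← aeval_mul_apply]
      exact h0

theorem cyc_kill {r : ℕ} [hrf : Fact r.Prime] (hTr : T ^ r = 1) (v : V) : aeval T (cyclotomic r F) (T v - v) = 0 := by
  have hmul : (X - C 1 : F[X]) * cyclotomic r F = X ^ r - 1 := Cfsg.Agent.Lib.PrimOrder.mul_cyc r
  have h1 : T v - v = aeval T (X - C 1 : F[X]) v := by simp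
  rw [h1, ← aeval_mul_apply, mul_comm, hmul, map_sub, map_pow, aeval_X, hTr, map_one, sub_self]
  rfl

theorem fix_free_of_factor {r : ℕ} [hrf : Fact r.Prime] (hrF : (r : F) ≠ 0) {h : F[X]} (hhd : h ∣ cyclotomic r F) (u : V) (hu : aeval T h u = 0) (hfix : T u = u) : u = 0 :=
  eq_zero_of_fix T h ((Cfsg.Agent.Lib.PrimOrder.coprime_cyc r hrF).of_isCoprime_of_dvd_right hhd) u hu hfix

/-- A simple subspace inside a fixed-point-free invariant subspace. -/
theorem exists_simple_in [hrf : Fact r.Prime] (hq : Fintype.card F = q) (hrF : (r : F) ≠ 0) (hTr : T ^ r = 1) {W : Submodule F V} (hWinv : InvOn T W)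
    (hfree : FixFree T W) (hW0 : W ≠ ⊥) :
    ∃ h : F[X], Irreducible h ∧ h ∣ cyclotomic r F ∧ ∃ U ≤ W, InvOn T U ∧ finrank F U = orderOf (q : ZMod r) ∧ (∀ u ∈ U, aeval T h u = 0) ∧ SimpleOn T U := by
  obtain ⟨v, hv, hv0⟩ := (Submodule.ne_bot_iff W).mp hW0
  have hw0 : T v - v ≠ 0 := fun h => hv0 (hfree v hv (sub_eq_zero.mp h))
  obtain ⟨h, hh, hhd, w', hw'W, hw'0, hw'⟩ := exists_factor_in hWinv _ _ rfl (cyclotomic_ne_zero r F) (T v - v) (W.sub_mem (hWinv v hv) hv) hw0 (cyc_kill hTr v)
  obtain ⟨U, huU, hUinv, hUfin, hUk, hUgen, hUs⟩ := exists_irr_span T h hh w' hw'0 hw'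
  refine ⟨h, hh, hhd, U, ?_, hUinv, ?_, hUk, hUs⟩
  · intro u hu
    obtain ⟨g, rfl⟩ := hUgen u hu
    exact inv_aeval T hWinv g hw'W
  · rw [hUfin]
    exact natDegree_factor hq hrF h hh hhd

/-- In a block, for `i` odd, there is a totally isotropic invariant subspace of dimension `i`. -/
theorem block_ti_odd [hrf : Fact r.Prime] (hq : Fintype.card F = q) (hr2 : r ≠ 2) (hrF : (r : F) ≠ 0) (halt : ∀ v, B v v = 0)
    (hiso : ∀ u v, B (T u) (T v) = B u v) (hTr : T ^ r = 1) (hodd : ¬ Even (orderOf (q : ZMod r))) {W : Submodule F V} (hWinv : InvOn T W)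
    (hfree : FixFree T W) (hW0 : W ≠ ⊥) :
    ∃ A ≤ W, InvOn T A ∧ TI B A ∧ finrank F A = orderOf (q : ZMod r) := by
  obtain ⟨h, hh, hhd, U, hUW, hUinv, hUfin, hUk, hUs⟩ := exists_simple_in hq hrF hTr hWinv hfree hW0
  refine ⟨U, hUW, hUinv, ?_, hUfin⟩
  rcases rad_dichotomy (Or.inl halt) hiso hrf.out.ne_zero hTr hUinv hUs with hnd | hti
  · exfalso
    apply hodd
    rw [← hUfin]
    exact even_of_fixfree (Or.inl halt) hiso (hrf.out.odd_of_ne_two hr2) hTr hnd hUinv (fun u hu hfix => hfree u (hUW hu) hfix)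
  · exact hti

/-- Totally isotropic invariant subspaces, `i` odd. -/
theorem exists_ti_odd [hrf : Fact r.Prime] (hq : Fintype.card F = q) (hr2 : r ≠ 2) (hrF : (r : F) ≠ 0) (halt : ∀ v, B v v = 0)
    (hiso : ∀ u v, B (T u) (T v) = B u v) (hTr : T ^ r = 1) (hodd : ¬ Even (orderOf (q : ZMod r))) :
    ∀ (e : ℕ) (U : Submodule F V) (b : ℕ), NDOn B U → InvOn T U → finrank F (fixS T U) + e * (2 * orderOf (q : ZMod r)) ≤ finrank F U →
      2 * b ≤ finrank F (fixS T U) → ∃ W ≤ U, InvOn T W ∧ TI B W ∧ finrank F W = e * orderOf (q : ZMod r) + b := by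
  have hr0 : r ≠ 0 := hrf.out.ne_zero
  have hB : GoodForm B := Or.inl halt
  have hipos := orderOf_pos' hq hrF
  intro e
  induction e with
  | zero =>
    intro U b hU hinv hle hb
    obtain ⟨W, hWU, hWti, hWfin⟩ := exists_ti_sub halt b (fixS T U) (nd_fixS hB hiso hr0 hrF hTr hU hinv) hb
    refine ⟨W, hWU.trans (fixS_le U), ?_, hWti, by rw [hWfin, zero_mul, zero_add]⟩
    intro w hw
    rw [(mem_fixS.mp (hWU hw)).2]
    exact hw
  | succ e ih =>
    intro U b hU hinv hle hb
    have hmove : ∃ u ∈ U, T u ≠ u := by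
      by_contra hall
      push Not at hall
      have h1 : fixS T U = U := le_antisymm (fixS_le U) fun u hu => mem_fixS.mpr ⟨hu, hall u hu⟩
      rw [h1] at hle
      have : 0 < (e + 1) * (2 * orderOf (q : ZMod r)) := by positivity
      omega
    obtain ⟨W₁, hW₁U, hW₁inv, hW₁nd, hW₁free, hW₁fin⟩ := exists_block_rel hq hr2 hrF hB hiso hTr hU hinv hmove
    rw [if_neg hodd] at hW₁fin
    have hW₁0 : W₁ ≠ ⊥ := by
      rintro rfl
      rw [finrank_bot] at hW₁fin
      omega
    obtain ⟨A, hAW, hAinv, hAti, hAfin⟩ := block_ti_odd hq hr2 hrF halt hiso hTr hodd hW₁inv hW₁free hW₁0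
    have h1 := finrank_rel hB hW₁U hW₁nd
    have hfx := Cfsg.Agent.S5961.fixS_rel_of_free (B := B) (U := U) hiso hW₁inv hW₁free
    obtain ⟨W', hW'U, hW'inv, hW'ti, hW'fin⟩ := ih (U ⊓ perp B W₁) b (nd_rel hB hW₁U hW₁nd hU) (inv_inf hinv (inv_perp hiso hr0 hTr hW₁inv))
      (by
        rw [hfx]
        rw [Nat.succ_mul] at hle
        omega)
      (by rw [hfx]; exact hb)
    have horth : ∀ a ∈ A, ∀ c ∈ W', B a c = 0 := fun a ha c hc => (hW'U hc).2 a (hAW ha)
    have hdisj : A ⊓ W' = ⊥ := by
      have h2 := disjoint_of_orth hB hW₁nd (W' := W') (fun a ha c hc => (hW'U hc).2 a ha)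
      exact (h2.mono_left hAW).eq_bot
    refine ⟨A ⊔ W', sup_le (hAW.trans hW₁U) (hW'U.trans inf_le_left), inv_sup hAinv hW'inv, ti_sup halt hAti hW'ti horth, ?_⟩
    have h3 := Submodule.finrank_sup_add_finrank_inf_eq A W'
    rw [hdisj, finrank_bot, add_zero, hAfin, hW'fin] at h3
    rw [h3, Nat.succ_mul]
    ring

end block

end Cfsg.Agent.Lib.SpTI
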