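import Mathlib
import Cfsg.Agent.Lib.SpTI.Basic

/-!
# Totally isotropic invariant subspaces: the even case
-/

set_option autoImplicit false
set_option linter.unusedSimpArgs false
set_option linter.unusedVariables false
set_option linter.unusedSectionVars false

namespace Cfsg.Agent.Lib.SpTI

open Module Polynomial Cfsg.Agent.Lib.IsomBlock

universe u

variable {F : Type*} [Field F] {V : Type u} [AddCommGroup V] [Module F V]
variable {B : V →ₗ[F] V →ₗ[F] F} {T : V →ₗ[F] V}

variable [FiniteDimensional F V] [Fintype F] {r q : ℕ}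

/-- Chevalley--Warning for a family of bilinear forms. -/
theorem exists_common_zero {κ : Type*} [Fintype κ] (Bs : κ → V →ₗ[F] V →ₗ[F] F) (h : 2 * Fintype.card κ < finrank F V) :
    ∃ v : V, v ≠ 0 ∧ ∀ k, Bs k v v = 0 := by
  classical
  obtain ⟨p, hpc⟩ := CharP.exists F
  let b := Module.finBasis F V
  let f : κ → MvPolynomial (Fin (finrank F V)) F := fun k =>
    ∑ l, ∑ l', MvPolynomial.C (Bs k (b l) (b l')) * (MvPolynomial.X l * MvPolynomial.X l')
  have hdeg : ∀ k, (f k).totalDegree ≤ 2 := by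
    intro k
    apply MvPolynomial.totalDegree_finsetSum_le
    intro l _
    apply MvPolynomial.totalDegree_finsetSum_le
    intro l' _
    refine (MvPolynomial.totalDegree_mul _ _).trans ?_
    have h1 : (MvPolynomial.X l * MvPolynomial.X l' : MvPolynomial (Fin (finrank F V)) F).totalDegree ≤ 2 := by
      refine (MvPolynomial.totalDegree_mul _ _).trans ?_
      simp [MvPolynomial.totalDegree_X]
    simpa using h1
  have hsum : (∑ k ∈ (Finset.univ : Finset κ), (f k).totalDegree) < Fintype.card (Fin (finrank F V)) := by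
    have h1 : ∑ k ∈ (Finset.univ : Finset κ), (f k).totalDegree ≤ ∑ k ∈ (Finset.univ : Finset κ), 2 := Finset.sum_le_sum fun k _ => hdeg k
    simp only [Finset.sum_const, Finset.card_univ, smul_eq_mul] at h1
    simp only [Fintype.card_fin]
    omega
  have hdvd := char_dvd_card_solutions_of_sum_lt p hsum
  have hev : ∀ (x : Fin (finrank F V) → F) (k : κ), MvPolynomial.eval x (f k) = Bs k (b.equivFun.symm x) (b.equivFun.symm x) := by
    intro x k
    simp only [f, map_sum, map_mul, MvPolynomial.eval_C, MvPolynomial.eval_X, Basis.equivFun_symm_apply]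
    simp only [LinearMap.sum_apply, map_smul, LinearMap.smul_apply, smul_eq_mul]
    rw [Finset.sum_comm]
    refine Finset.sum_congr rfl fun l _ => ?_
    rw [Finset.mul_sum]
    refine Finset.sum_congr rfl fun l' _ => ?_
    ring
  by_contra hall
  push Not at hall
  have hone : Nat.card { x : Fin (finrank F V) → F // ∀ k ∈ (Finset.univ : Finset κ), MvPolynomial.eval x (f k) = 0 } = 1 := by
    rw [Nat.card_eq_one_iff_unique]
    refine ⟨⟨?_⟩, ⟨⟨0, fun k _ => by rw [hev]; simp⟩⟩⟩
    have h0 : ∀ y : { x : Fin (finrank F V) → F // ∀ k ∈ (Finset.univ : Finset κ), MvPolynomial.eval x (f k) = 0 }, y.1 = 0 := by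
      rintro ⟨x, hx⟩
      by_contra hx0
      have hv : b.equivFun.symm x ≠ 0 := by
        intro h0
        apply hx0
        have := b.equivFun.symm.injective (h0.trans (map_zero _).symm)
        exact this
      obtain ⟨k, hk⟩ := hall _ hv
      apply hk
      rw [← hev]
      exact hx k (Finset.mem_univ k)
    intro a c
    apply Subtype.ext
    rw [h0 a, h0 c]
  rw [Nat.card_eq_fintype_card] at hone
  have hdvd' : p ∣ 1 := by
    rw [← hone]
    convert hdvd
  have hp := CharP.char_is_prime F p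
  exact hp.one_lt.ne' (Nat.dvd_one.mp hdvd')

/-- `T ^ (q ^ e)` is the inverse of `T`. -/
theorem frob_inv [hrf : Fact r.Prime] (hq : Fintype.card F = q) (hTr : T ^ r = 1) {e : ℕ} (hi : orderOf (q : ZMod r) = 2 * e) (he : 0 < e) :
    T ^ (q ^ e) = T ^ (r - 1) := by
  have hr0 : r ≠ 0 := hrf.out.ne_zero
  have hQ : r ∣ q ^ e + 1 := by
    have h1 : ((q : ZMod r) ^ e) * ((q : ZMod r) ^ e) = 1 := by
      rw [← pow_add, show e + e = 2 * e by ring, ← hi, pow_orderOf_eq_one]
    have h2 : (q : ZMod r) ^ e ≠ 1 := pow_ne_one_of_lt_orderOf (by omega) (by omega)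
    have h3 : ((q : ZMod r) ^ e - 1) * ((q : ZMod r) ^ e + 1) = 0 := by linear_combination h1
    have h4 : (q : ZMod r) ^ e + 1 = 0 := (mul_eq_zero.mp h3).resolve_left (sub_ne_zero.mpr h2)
    apply (ZMod.natCast_eq_zero_iff _ _).mp
    push_cast
    exact h4
  obtain ⟨k, hk⟩ := hQ
  have h1 : T ^ (q ^ e) * T = 1 := by
    rw [← pow_succ, hk, pow_mul, hTr, one_pow]
  calc T ^ (q ^ e) = T ^ (q ^ e) * (T * T ^ (r - 1)) := by rw [T_mul_inv hr0 hTr, mul_one]
    _ = T ^ (r - 1) := by rw [← mul_assoc, h1, one_mul]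

/-- Kernels of factors are nondegenerate, `i` even. -/
theorem ker_nd [hrf : Fact r.Prime] (hq : Fintype.card F = q) (hrF : (r : F) ≠ 0)
    (hiso : ∀ u v, B (T u) (T v) = B u v) (hTr : T ^ r = 1) {e : ℕ} (hi : orderOf (q : ZMod r) = 2 * e) (he : 0 < e)
    {h : F[X]} (hhd : h ∣ cyclotomic r F) {U : Submodule F V} (hU : NDOn B U) (hinv : InvOn T U) :
    NDOn B (U ⊓ LinearMap.ker (aeval T h)) := by
  have hr0 : r ≠ 0 := hrf.out.ne_zero
  have hq0 : q ≠ 0 := by
    rw [← hq]
    exact Fintype.card_ne_zero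
  have hmul : (X - C 1 : F[X]) * cyclotomic r F = X ^ r - 1 := Cfsg.Agent.Lib.PrimOrder.mul_cyc r
  have hkill : ∀ y, aeval T (X ^ r - 1 : F[X]) y = 0 := by
    intro y
    rw [map_sub, map_pow, aeval_X, hTr, map_one, sub_self]
    rfl
  have hsep : (X ^ r - 1 : F[X]).Separable := by
    have := separable_X_pow_sub_C (1 : F) hrF one_ne_zero
    simpa using this
  have hSh : ∀ u, aeval T h u = 0 → aeval (T ^ (r - 1)) h u = 0 := by
    intro u hu
    rw [← frob_inv hq hTr hi he]
    exact aeval_frob hq h e hq0 u hu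
  obtain ⟨g, hg⟩ : h ∣ X ^ r - 1 := hhd.trans (Dvd.intro_left _ hmul)
  obtain ⟨a, b, hab⟩ : IsCoprime h g := Separable.isCoprime (hg ▸ hsep)
  intro u hu h0
  apply hU u hu.1
  intro y hy
  have hu' : aeval T h u = 0 := hu.2
  have hy1 : aeval T (a * h) y + aeval T (b * g) y = y := by
    rw [← LinearMap.add_apply, ← map_add, hab, map_one]
    rfl
  have hy2 : aeval T (b * g) y ∈ U ⊓ LinearMap.ker (aeval T h) := by
    refine ⟨inv_aeval T hinv _ hy, ?_⟩
    show aeval T h (aeval T (b * g) y) = 0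
    rw [← aeval_mul_apply]
    have h3 : h * (b * g) = b * (X ^ r - 1) := by rw [hg]; ring
    rw [h3, aeval_mul_apply, hkill, map_zero]
  rw [← hy1, map_add, h0 _ hy2, add_zero, mul_comm a h, aeval_mul_apply, ← form_aeval' hiso hr0 hTr, hSh u hu', map_zero, LinearMap.zero_apply]

/-- The generic construction of a totally isotropic subspace in a space killed by one factor. -/
theorem exists_ti_of_kill [hrf : Fact r.Prime] (hq : Fintype.card F = q) (hrF : (r : F) ≠ 0) (halt : ∀ v, B v v = 0)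
    (hiso : ∀ u v, B (T u) (T v) = B u v) (hTr : T ^ r = 1) {e : ℕ} (hi : orderOf (q : ZMod r) = 2 * e) (he : 0 < e)
    {h : F[X]} (hh : Irreducible h) (hhd : h ∣ cyclotomic r F) {P : Submodule F V} (hPinv : InvOn T P) (hPk : ∀ u ∈ P, aeval T h u = 0)
    (hPdim : 2 * e < finrank F P) :
    ∃ A ≤ P, InvOn T A ∧ TI B A ∧ finrank F A = 2 * e := by
  classical
  have hr0 : r ≠ 0 := hrf.out.ne_zero
  have hanti := anti_of_alt halt
  obtain ⟨⟨v, hvP⟩, hv0, hv⟩ := exists_common_zero (V := P) (κ := Fin e) (fun k => (B.compl₂ (T ^ ((k : ℕ) + 1))).domRestrict₁₂ P P)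
    (by simpa using hPdim)
  have hv0' : v ≠ 0 := fun h0 => hv0 (Subtype.ext h0)
  have hvk : ∀ k, k ≤ e → B v ((T ^ k) v) = 0 := by
    intro k hk
    rcases Nat.eq_zero_or_pos k with rfl | hk0
    · simpa using halt v
    · have h3 : B v ((T ^ (k - 1 + 1)) v) = 0 := hv ⟨k - 1, by omega⟩
      rwa [Nat.sub_add_cancel hk0] at h3
  set y := T ^ (r - 1) with hy
  have hTy : T * y = 1 := T_mul_inv hr0 hTr
  have hyT : y * T = 1 := inv_mul_T hr0 hTr
  have hadj : ∀ (k : ℕ) (a c : V), B ((T ^ k) a) c = B a ((y ^ k) c) := by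
    intro k a c
    have h1 := form_aeval hiso hr0 hTr (X ^ k) a c
    simpa using h1
  have hvy : ∀ k, k ≤ e → B v ((y ^ k) v) = 0 := by
    intro k hk
    rw [← hadj, hanti, hvk k hk, neg_zero]
  set u₀ := (y ^ e) v with hu₀
  have hu₀P : u₀ ∈ P := by
    rw [hu₀, hy, ← pow_mul]
    exact inv_pow hPinv _ hvP
  have hcomm : Commute T y := by
    rw [hy]
    exact (Commute.refl T).pow_right _
  have hTe : (T ^ e) u₀ = v := by
    rw [hu₀, ← Module.End.mul_apply, ← hcomm.mul_pow, hTy, one_pow]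
    rfl
  have hj : ∀ j, j < 2 * e → B v ((T ^ j) u₀) = 0 := by
    intro j hjlt
    rcases le_total e j with hje | hje
    · obtain ⟨l, rfl⟩ := Nat.exists_eq_add_of_le hje
      have h1 : (T ^ (e + l)) u₀ = (T ^ l) v := by
        rw [add_comm, pow_add, Module.End.mul_apply, hTe]
      rw [h1]
      exact hvk l (by omega)
    · obtain ⟨l, rfl⟩ := Nat.exists_eq_add_of_le hje
      have h1 : (T ^ j) u₀ = (y ^ l) v := by
        rw [hu₀, pow_add, ← Module.End.mul_apply, ← mul_assoc, ← hcomm.mul_pow, hTy, one_pow, one_mul]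
      rw [h1]
      exact hvy l (by omega)
  have hhu : aeval T h u₀ = 0 := hPk u₀ hu₀P
  have hdeg : h.natDegree = 2 * e := by
    rw [natDegree_factor hq hrF h hh hhd, hi]
  have hall : ∀ g : F[X], B v (aeval T g u₀) = 0 := by
    intro g
    have h1 : g = h * (g / h) + g % h := (EuclideanDomain.div_add_mod g h).symm
    have h2 : aeval T g u₀ = aeval T (g % h) u₀ := by
      conv_lhs => rw [h1]
      rw [map_add, LinearMap.add_apply, mul_comm, aeval_mul_apply, hhu, map_zero, zero_add]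
    rw [h2]
    have h3 : (g % h).natDegree < 2 * e := by
      by_cases h0 : g % h = 0
      · rw [h0, natDegree_zero]
        omega
      · rw [← hdeg]
        exact natDegree_lt_natDegree h0 (degree_mod_lt g hh.ne_zero)
    rw [aeval_eq_sum_range' h3, LinearMap.sum_apply, map_sum]
    apply Finset.sum_eq_zero
    intro j hjm
    rw [LinearMap.smul_apply, map_smul, hj j (Finset.mem_range.mp hjm), smul_zero]
  have hall' : ∀ g : F[X], B v (aeval T g v) = 0 := by
    intro g
    have h1 : aeval T g v = aeval T (g * X ^ e) u₀ := by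
      rw [aeval_mul_apply]
      congr 1
      simp [hTe]
    rw [h1]
    exact hall _
  obtain ⟨U, hvU, hUinv, hUfin, hUk, hUgen, hUs⟩ := exists_irr_span T h hh v hv0' (hPk v hvP)
  refine ⟨U, ?_, hUinv, ?_, by rw [hUfin, hdeg]⟩
  · intro u hu
    obtain ⟨g, rfl⟩ := hUgen u hu
    exact inv_aeval T hPinv g hvP
  · intro a ha c hc
    obtain ⟨g₁, rfl⟩ := hUgen a ha
    obtain ⟨g₂, rfl⟩ := hUgen c hc
    rw [form_aeval hiso hr0 hTr]
    have h1 : aeval (T ^ (r - 1)) g₁ = aeval T (g₁.comp (X ^ (r - 1))) := by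
      rw [aeval_comp]
      simp
    rw [h1, ← aeval_mul_apply]
    exact hall' _

section factors

open scoped Classical

/-- The normalized irreducible factors of the cyclotomic polynomial. -/
noncomputable def Fs (F : Type*) [Field F] (r : ℕ) : Finset F[X] :=
  (UniqueFactorizationMonoid.normalizedFactors (cyclotomic r F)).toFinset

omit [Fintype F] in
theorem mem_Fs {r : ℕ} {h : F[X]} : h ∈ Fs F r ↔ h ∈ UniqueFactorizationMonoid.normalizedFactors (cyclotomic r F) := by
  unfold Fs
  exact Multiset.mem_toFinset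

/-- The number of factors. -/
theorem card_Fs [hrf : Fact r.Prime] (hq : Fintype.card F = q) (hrF : (r : F) ≠ 0) :
    (Fs F r).card * orderOf (q : ZMod r) = r - 1 := by
  classical
  have hne : cyclotomic r F ≠ 0 := cyclotomic_ne_zero r F
  have hmul : (X - C 1 : F[X]) * cyclotomic r F = X ^ r - 1 := Cfsg.Agent.Lib.PrimOrder.mul_cyc r
  have hsep : (X ^ r - 1 : F[X]).Separable := by
    have := separable_X_pow_sub_C (1 : F) hrF one_ne_zero
    simpa using this
  have hsep' : (cyclotomic r F).Separable := hsep.of_dvd (Dvd.intro_left _ hmul)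
  have hnd := (UniqueFactorizationMonoid.squarefree_iff_nodup_normalizedFactors hne).mp hsep'.squarefree
  have h1 : (Fs F r).card = (UniqueFactorizationMonoid.normalizedFactors (cyclotomic r F)).card := by
    unfold Fs
    exact Multiset.toFinset_card_of_nodup hnd
  rw [h1]
  have h2 := UniqueFactorizationMonoid.prod_normalizedFactors hne
  have h3 : (UniqueFactorizationMonoid.normalizedFactors (cyclotomic r F)).prod.natDegree = r - 1 := by
    rw [natDegree_eq_of_degree_eq (degree_eq_degree_of_associated h2), Cfsg.Agent.Lib.PrimOrder.natDegree_cyc]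
  have h0 : (0 : F[X]) ∉ UniqueFactorizationMonoid.normalizedFactors (cyclotomic r F) := UniqueFactorizationMonoid.zero_notMem_normalizedFactors _
  rw [natDegree_multiset_prod _ h0] at h3
  rw [← h3]
  have h4 : ∀ h ∈ UniqueFactorizationMonoid.normalizedFactors (cyclotomic r F), natDegree h = orderOf (q : ZMod r) := by
    intro h hh
    exact natDegree_factor hq hrF h (UniqueFactorizationMonoid.irreducible_of_normalized_factor h hh)
      (UniqueFactorizationMonoid.dvd_of_mem_normalizedFactors hh)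
  rw [Multiset.map_congr rfl h4, Multiset.map_const', Multiset.sum_replicate, smul_eq_mul]

theorem irr_of_mem_Fs {r : ℕ} {h : F[X]} (hh : h ∈ Fs F r) : Irreducible h :=
  UniqueFactorizationMonoid.irreducible_of_normalized_factor h (mem_Fs.mp hh)

theorem dvd_of_mem_Fs {r : ℕ} {h : F[X]} (hh : h ∈ Fs F r) : h ∣ cyclotomic r F :=
  UniqueFactorizationMonoid.dvd_of_mem_normalizedFactors (mem_Fs.mp hh)

/-- A normalized factor associated to an irreducible factor. -/
theorem exists_mem_Fs {r : ℕ} [hrf : Fact r.Prime] {h : F[X]} (hh : Irreducible h) (hd : h ∣ cyclotomic r F) :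
    ∃ h' ∈ Fs F r, ∃ c : F[X], h' = h * c := by
  obtain ⟨h', h1, h2⟩ := UniqueFactorizationMonoid.exists_mem_normalizedFactors_of_dvd (cyclotomic_ne_zero r F) hh hd
  obtain ⟨u, hu⟩ := h2
  exact ⟨h', mem_Fs.mpr h1, u, hu.symm⟩

/-- The types occurring in a subspace. -/
noncomputable def typesOf (T : V →ₗ[F] V) (r : ℕ) (U : Submodule F V) : Finset F[X] := by
  classical
  exact (Fs F r).filter fun h => U ⊓ LinearMap.ker (aeval T h) ≠ ⊥

theorem mem_typesOf {r : ℕ} {U : Submodule F V} {h : F[X]} : h ∈ typesOf T r U ↔ h ∈ Fs F r ∧ U ⊓ LinearMap.ker (aeval T h) ≠ ⊥ := by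
  classical
  simp [typesOf]

theorem typesOf_mono {r : ℕ} {U U' : Submodule F V} (hle : U' ≤ U) : typesOf T r U' ⊆ typesOf T r U := by
  intro h hh
  rw [mem_typesOf] at hh ⊢
  refine ⟨hh.1, fun h0 => hh.2 ?_⟩
  rw [eq_bot_iff, ← h0]
  exact inf_le_inf_right _ hle

/-- Totally isotropic invariant subspaces, `i` even. -/
theorem exists_ti_even [hrf : Fact r.Prime] (hq : Fintype.card F = q) (hr2 : r ≠ 2) (hrF : (r : F) ≠ 0) (halt : ∀ v, B v v = 0)
    (hiso : ∀ u v, B (T u) (T v) = B u v) (hTr : T ^ r = 1) {e : ℕ} (hi : orderOf (q : ZMod r) = 2 * e) (he : 0 < e) :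
    ∀ (n : ℕ) (U : Submodule F V) (s a b : ℕ), finrank F U = n → NDOn B U → InvOn T U → finrank F U = finrank F (fixS T U) + s * (2 * e) →
      (a = 0 ∨ (typesOf T r U).card + 2 * a ≤ s + 1) → 2 * b ≤ finrank F (fixS T U) →
      ∃ W ≤ U, InvOn T W ∧ TI B W ∧ finrank F W = a * (2 * e) + b := by
  have hr0 : r ≠ 0 := hrf.out.ne_zero
  have hB : GoodForm B := Or.inl halt
  have hev : Even (orderOf (q : ZMod r)) := ⟨e, by omega⟩
  intro n
  induction n using Nat.strong_induction_on with
  | _ n ih =>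
    intro U s a b hn hU hinv hs ha hb
    rcases Nat.eq_zero_or_pos a with rfl | hapos
    · obtain ⟨W, hWU, hWti, hWfin⟩ := exists_ti_sub halt b (fixS T U) (nd_fixS hB hiso hr0 hrF hTr hU hinv) hb
      refine ⟨W, hWU.trans (fixS_le U), ?_, hWti, by rw [hWfin, zero_mul, zero_add]⟩
      intro w hw
      rw [(mem_fixS.mp (hWU hw)).2]
      exact hw
    have ha' : (typesOf T r U).card + 2 * a ≤ s + 1 := ha.resolve_left hapos.ne'
    have hs1 : 1 ≤ s := by omega
    obtain ⟨s', rfl⟩ := Nat.exists_eq_add_of_le' hs1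
    have hpe : 0 < 2 * e := by omega
    have hmove : ∃ u ∈ U, T u ≠ u := by
      by_contra hall
      push Not at hall
      have h1 : fixS T U = U := le_antisymm (fixS_le U) fun u hu => mem_fixS.mpr ⟨hu, hall u hu⟩
      rw [h1] at hs
      have : 0 < (s' + 1) * (2 * e) := by positivity
      omega
    obtain ⟨W₁, hW₁U, hW₁inv, hW₁nd, hW₁free, hW₁fin⟩ := exists_block_rel hq hr2 hrF hB hiso hTr hU hinv hmove
    rw [if_pos hev, hi] at hW₁fin
    have hW₁0 : W₁ ≠ ⊥ := by
      rintro rfl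
      rw [finrank_bot] at hW₁fin
      omega
    obtain ⟨h₀, hh₀, hh₀d, U₀, hU₀W, hU₀inv, hU₀fin, hU₀k, hU₀s⟩ := exists_simple_in hq hrF hTr hW₁inv hW₁free hW₁0
    have hU₀eq : U₀ = W₁ := Submodule.eq_of_le_of_finrank_eq hU₀W (by rw [hU₀fin, hi, hW₁fin])
    obtain ⟨h, hhF, c, hc⟩ := exists_mem_Fs hh₀ hh₀d
    have hkill₁ : ∀ u ∈ W₁, aeval T h u = 0 := by
      intro u hu
      rw [hc, mul_comm, aeval_mul_apply, hU₀k u (hU₀eq ▸ hu), map_zero]
    have hhirr := irr_of_mem_Fs hhF
    have hhd := dvd_of_mem_Fs hhF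
    have hU'nd : NDOn B (U ⊓ perp B W₁) := nd_rel hB hW₁U hW₁nd hU
    have hU'inv : InvOn T (U ⊓ perp B W₁) := inv_inf hinv (inv_perp hiso hr0 hTr hW₁inv)
    have hfin1 := finrank_rel hB hW₁U hW₁nd
    have hfx1 := Cfsg.Agent.S5961.fixS_rel_of_free (B := B) (U := U) hiso hW₁inv hW₁free
    rw [Nat.succ_mul] at hs
    have hhU : h ∈ typesOf T r U := by
      rw [mem_typesOf]
      refine ⟨hhF, fun h0 => hW₁0 ?_⟩
      rw [eq_bot_iff, ← h0]
      exact le_inf hW₁U hkill₁
    by_cases hcase : (U ⊓ perp B W₁) ⊓ LinearMap.ker (aeval T h) = ⊥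
    · -- the type disappears
      have hsub : typesOf T r (U ⊓ perp B W₁) ⊆ (typesOf T r U).erase h := by
        intro g hg
        rw [Finset.mem_erase]
        refine ⟨?_, typesOf_mono inf_le_left hg⟩
        rintro rfl
        exact (mem_typesOf.mp hg).2 hcase
      have hcard := Finset.card_le_card hsub
      rw [Finset.card_erase_of_mem hhU] at hcard
      have hpos : 0 < (typesOf T r U).card := Finset.card_pos.mpr ⟨h, hhU⟩
      exact ih (finrank F (U ⊓ perp B W₁ : Submodule F V)) (by omega) (U ⊓ perp B W₁) s' a b rfl hU'nd hU'inv (by rw [hfx1]; omega)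
        (Or.inr (by omega)) (by rw [hfx1]; exact hb) |>.imp fun W hW => ⟨hW.1.trans inf_le_left, hW.2⟩
    · -- a second block of the same type
      have hUh := ker_nd hq hrF hiso hTr hi he hhd hU'nd hU'inv
      have hUhinv : InvOn T ((U ⊓ perp B W₁) ⊓ LinearMap.ker (aeval T h)) := by
        apply inv_inf hU'inv
        intro u hu
        rw [LinearMap.mem_ker] at hu ⊢
        rw [aeval_X_comm, hu, map_zero]
      obtain ⟨v, hv, hv0⟩ := (Submodule.ne_bot_iff _).mp hcase
      have hmove2 : ∃ u ∈ (U ⊓ perp B W₁) ⊓ LinearMap.ker (aeval T h), T u ≠ u :=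
        ⟨v, hv, fun hfix => hv0 (fix_free_of_factor hrF hhd v hv.2 hfix)⟩
      obtain ⟨W₂, hW₂U, hW₂inv, hW₂nd, hW₂free, hW₂fin⟩ := exists_block_rel hq hr2 hrF hB hiso hTr hUh hUhinv hmove2
      rw [if_pos hev, hi] at hW₂fin
      have hW₂U' : W₂ ≤ U ⊓ perp B W₁ := hW₂U.trans inf_le_left
      have horth : ∀ a ∈ W₁, ∀ b ∈ W₂, B a b = 0 := fun a ha b hb => (hW₂U' hb).2 a ha
      have hPnd : NDOn B (W₁ ⊔ W₂) := nd_sup hB hW₁nd hW₂nd horth
      have hPfin : finrank F (W₁ ⊔ W₂ : Submodule F V) = finrank F W₁ + finrank F W₂ := finrank_sup_orth hB hW₁nd horth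
      have hPinv : InvOn T (W₁ ⊔ W₂) := inv_sup hW₁inv hW₂inv
      have hPk : ∀ u ∈ W₁ ⊔ W₂, aeval T h u = 0 := by
        intro u hu
        obtain ⟨x, hx, y, hy, rfl⟩ := Submodule.mem_sup.mp hu
        rw [map_add, hkill₁ x hx, (hW₂U hy).2, add_zero]
      obtain ⟨A, hAP, hAinv, hAti, hAfin⟩ := exists_ti_of_kill hq hrF halt hiso hTr hi he hhirr hhd hPinv hPk (by omega)
      have hfin2 := finrank_rel hB hW₂U' hW₂nd
      have hfx2 := Cfsg.Agent.S5961.fixS_rel_of_free (B := B) (U := U ⊓ perp B W₁) hiso hW₂inv hW₂free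
      have hs2 : 1 ≤ s' := by
        by_contra hs0
        have : s' = 0 := by omega
        subst this
        rw [hfx1] at hfx2
        rw [zero_mul] at hs
        have h5 := Submodule.finrank_mono (show fixS T U ≤ (U ⊓ perp B W₁ : Submodule F V) ⊓ perp B W₂ by
          rw [← hfx2]
          exact fixS_le _)
        omega
      obtain ⟨s'', rfl⟩ := Nat.exists_eq_add_of_le' hs2
      rw [Nat.succ_mul] at hs
      have hfxU : fixS T ((U ⊓ perp B W₁) ⊓ perp B W₂) = fixS T U := by rw [hfx2, hfx1]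
      have hcard := Finset.card_le_card (typesOf_mono (T := T) (r := r) (show ((U ⊓ perp B W₁) ⊓ perp B W₂ : Submodule F V) ≤ U from inf_le_left.trans inf_le_left))
      obtain ⟨W', hW'U, hW'inv, hW'ti, hW'fin⟩ := ih (finrank F ((U ⊓ perp B W₁) ⊓ perp B W₂ : Submodule F V)) (by omega) ((U ⊓ perp B W₁) ⊓ perp B W₂) s'' (a - 1) b rfl
        (nd_rel hB hW₂U' hW₂nd hU'nd) (inv_inf hU'inv (inv_perp hiso hr0 hTr hW₂inv)) (by rw [hfxU]; omega)
        (Or.inr (by omega)) (by rw [hfxU]; exact hb)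
      have horth2 : ∀ x ∈ W₁ ⊔ W₂, ∀ y ∈ W', B x y = 0 := by
        intro x hx y hy
        obtain ⟨c₁, hc₁, c₂, hc₂, rfl⟩ := Submodule.mem_sup.mp hx
        have hy' := hW'U hy
        rw [map_add, LinearMap.add_apply, hy'.1.2 c₁ hc₁, hy'.2 c₂ hc₂, add_zero]
      have hdisj : A ⊓ W' = ⊥ := by
        have h2 := disjoint_of_orth hB hPnd (W' := W') horth2
        exact (h2.mono_left hAP).eq_bot
      refine ⟨A ⊔ W', sup_le (hAP.trans (sup_le hW₁U (hW₂U'.trans inf_le_left))) (hW'U.trans (inf_le_left.trans inf_le_left)), inv_sup hAinv hW'inv,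
        ti_sup halt hAti hW'ti (fun x hx y hy => horth2 x (hAP hx) y hy), ?_⟩
      have h3 := Submodule.finrank_sup_add_finrank_inf_eq A W'
      rw [hdisj, finrank_bot, add_zero, hAfin, hW'fin] at h3
      rw [h3]
      obtain ⟨a', rfl⟩ : ∃ a', a = a' + 1 := ⟨a - 1, by omega⟩
      rw [Nat.add_sub_cancel, Nat.succ_mul]
      ring

end factors

end Cfsg.Agent.Lib.SpTI
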