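import Mathlib
import Cfsg.Agent.Lib.SpTI.Even

/-!
# Upper bounds for invariant totally isotropic subspaces
-/

set_option autoImplicit false
set_option linter.unusedSimpArgs false
set_option linter.unusedVariables false
set_option linter.unusedSectionVars false

namespace Cfsg.Agent.Lib.SpTI

open Module Polynomial Cfsg.Agent.Lib.IsomBlock

universe u

variable {F : Type*} [Field F] {V : Type u} [AddCommGroup V] [Module F V]
variable {B : V →ₗ[F] V →ₗ[F] F} {T : V →ₗ[F] V}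
variable [FiniteDimensional F V]

/-- The bound inside a nondegenerate subspace. -/
theorem ti_bound_on (halt : ∀ v, B v v = 0) {U W : Submodule F V} (hU : NDOn B U) (hWU : W ≤ U) (hW : TI B W) :
    2 * finrank F W ≤ finrank F U := by
  let B' : U →ₗ[F] U →ₗ[F] F := B.compl₁₂ U.subtype U.subtype
  have h := ti_bound (B := B') (fun v => halt v) (fun v hv => Subtype.ext (hU v v.2 fun w hw => hv ⟨w, hw⟩))
    (W := W.comap U.subtype) (fun a ha b hb => hW a ha b hb)
  have e : finrank F (W.comap U.subtype) = finrank F W := (Submodule.comapSubtypeEquivOfLe hWU).finrank_eq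
  rwa [e] at h

theorem map_le_of_inv {W : Submodule F V} (h : InvOn T W) : W.map T ≤ W := by
  rintro _ ⟨v, hv, rfl⟩
  exact h v hv

variable [Fintype F] {r q : ℕ}

theorem inv_ker (h : F[X]) : InvOn T (LinearMap.ker (aeval T h)) := by
  intro v hv
  rw [LinearMap.mem_ker] at hv ⊢
  rw [aeval_X_comm, hv, map_zero]

theorem dvd_finrank_of_kill [hrf : Fact r.Prime] (hq : Fintype.card F = q) (hrF : (r : F) ≠ 0) {W : Submodule F V} (hW : InvOn T W) {h : F[X]} (hh0 : h ≠ 0)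
    (hhd : h ∣ cyclotomic r F) (hk : ∀ v ∈ W, aeval T h v = 0) : orderOf (q : ZMod r) ∣ finrank F W := by
  have h2 : orderOf (q : ZMod r) ∣ finrank F W - finrank F (⊥ : Submodule F V) :=
    Cfsg.Agent.Lib.ElusiveCore.chain_dvd (g := h) (f := T) hh0
      (fun π hπ hd => natDegree_factor hq hrF π hπ (hd.trans hhd))
      (W₀ := ⊥) (W₁ := W) (by simp) (map_le_of_inv hW) bot_le hk
  rwa [finrank_bot, Nat.sub_zero] at h2

/-- Splitting off the fixed part. -/
theorem bound_fix [hrf : Fact r.Prime] (hrF : (r : F) ≠ 0) (halt : ∀ v, B v v = 0) (hnd : NDOn B ⊤)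
    (hiso : ∀ u v, B (T u) (T v) = B u v) (hTr : T ^ r = 1) {m₀ : ℕ} (hfix : finrank F (fixS T ⊤) ≤ 2 * m₀) {W : Submodule F V}
    (hWinv : InvOn T W) (hWti : TI B W) :
    finrank F W = finrank F (W ⊓ LinearMap.ker (aeval T (X - C 1 : F[X])) : Submodule F V) +
        finrank F (W ⊓ LinearMap.ker (aeval T (cyclotomic r F)) : Submodule F V) ∧
      finrank F (W ⊓ LinearMap.ker (aeval T (X - C 1 : F[X])) : Submodule F V) ≤ m₀ := by
  have hB : GoodForm B := Or.inl halt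
  have hr0 : r ≠ 0 := hrf.out.ne_zero
  have hmul : (X - C 1 : F[X]) * cyclotomic r F = X ^ r - 1 := Cfsg.Agent.Lib.PrimOrder.mul_cyc r
  refine ⟨Cfsg.Agent.Lib.ElusiveCore.finrank_inf_decomp T (map_le_of_inv hWinv) (Cfsg.Agent.Lib.PrimOrder.coprime_cyc r hrF) ?_, ?_⟩
  · intro v _
    rw [hmul, map_sub, map_pow, aeval_X, hTr, map_one, sub_self]
    rfl
  · have h1 : NDOn B (fixS T ⊤) := nd_fixS hB hiso hr0 hrF hTr hnd (fun _ _ => trivial)
    have h2 : (W ⊓ LinearMap.ker (aeval T (X - C 1 : F[X])) : Submodule F V) ≤ fixS T ⊤ := by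
      rintro v ⟨-, hv⟩
      rw [mem_fixS]
      refine ⟨trivial, ?_⟩
      have h3 : aeval T (X - C 1 : F[X]) v = 0 := hv
      simpa [sub_eq_zero] using h3
    have h3 := ti_bound_on halt h1 h2 (hWti.mono inf_le_left)
    omega

/-- The basic bound. -/
theorem bound_basic [hrf : Fact r.Prime] (hq : Fintype.card F = q) (hrF : (r : F) ≠ 0) (halt : ∀ v, B v v = 0) (hnd : NDOn B ⊤)
    (hiso : ∀ u v, B (T u) (T v) = B u v) (hTr : T ^ r = 1) {m₀ : ℕ} (hfix : finrank F (fixS T ⊤) ≤ 2 * m₀) {W : Submodule F V}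
    (hWinv : InvOn T W) (hWti : TI B W) :
    ∃ a b, finrank F W = a * orderOf (q : ZMod r) + b ∧ b ≤ m₀ := by
  obtain ⟨h1, h2⟩ := bound_fix hrF halt hnd hiso hTr hfix hWinv hWti
  obtain ⟨a, ha⟩ := dvd_finrank_of_kill (h := cyclotomic r F) (W := W ⊓ LinearMap.ker (aeval T (cyclotomic r F))) hq hrF
    (inv_inf hWinv (inv_ker _)) (cyclotomic_ne_zero r F) dvd_rfl (fun v hv => hv.2)
  exact ⟨a, _, by rw [h1, ha, mul_comm a]; ring, h2⟩

/-- The refined bound, `i` even. -/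
theorem bound_types [hrf : Fact r.Prime] (hq : Fintype.card F = q) (hrF : (r : F) ≠ 0) (halt : ∀ v, B v v = 0) (hnd : NDOn B ⊤)
    (hiso : ∀ u v, B (T u) (T v) = B u v) (hTr : T ^ r = 1) {e : ℕ} (hi : orderOf (q : ZMod r) = 2 * e) (he : 0 < e)
    {h₁ : F[X]} (hh₁ : h₁ ∈ Fs F r) {a₁ m₀ : ℕ} (hker₁ : finrank F (LinearMap.ker (aeval T h₁)) ≤ a₁ * (2 * e))
    (hker : ∀ h ∈ Fs F r, h ≠ h₁ → finrank F (LinearMap.ker (aeval T h)) ≤ 2 * e)
    (hfix : finrank F (fixS T ⊤) ≤ 2 * m₀) {W : Submodule F V} (hWinv : InvOn T W) (hWti : TI B W) :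
    ∃ a b, finrank F W = a * (2 * e) + b ∧ 2 * a ≤ a₁ ∧ b ≤ m₀ := by
  have hB : GoodForm B := Or.inl halt
  -- the kernels
  have hkernd : ∀ h ∈ Fs F r, NDOn B (LinearMap.ker (aeval T h)) := by
    intro h hh
    have := ker_nd hq hrF hiso hTr hi he (dvd_of_mem_Fs hh) hnd (fun _ _ => trivial)
    rwa [top_inf_eq] at this
  have hdim : ∀ h ∈ Fs F r, ∀ U : Submodule F V, InvOn T U → U ≤ LinearMap.ker (aeval T h) → TI B U →
      ∃ a, finrank F U = a * (2 * e) ∧ 2 * finrank F U ≤ finrank F (LinearMap.ker (aeval T h)) := by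
    intro h hh U hU hle hti
    obtain ⟨a, ha⟩ := dvd_finrank_of_kill hq hrF hU (irr_of_mem_Fs hh).ne_zero (dvd_of_mem_Fs hh) (fun v hv => hle hv)
    rw [hi] at ha
    exact ⟨a, by rw [ha]; ring, ti_bound_on halt (hkernd h hh) hle hti⟩
  have hzero : ∀ h ∈ Fs F r, h ≠ h₁ → ∀ w ∈ W, aeval T h w = 0 → w = 0 := by
    intro h hh hne w hw hk
    obtain ⟨a, ha, hb⟩ := hdim h hh (W ⊓ LinearMap.ker (aeval T h)) (inv_inf hWinv (inv_ker _)) inf_le_right (hWti.mono inf_le_left)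
    have h1 := hker h hh hne
    have h2 : a = 0 := by
      rcases Nat.eq_zero_or_pos a with h3 | h3
      · exact h3
      · have : 1 * (2 * e) ≤ a * (2 * e) := Nat.mul_le_mul_right _ h3
        omega
    rw [h2, zero_mul] at ha
    have h3 := Submodule.finrank_eq_zero.mp ha
    have h4 : w ∈ W ⊓ LinearMap.ker (aeval T h) := ⟨hw, hk⟩
    rw [h3] at h4
    exact h4
  obtain ⟨h1, h2⟩ := bound_fix hrF halt hnd hiso hTr hfix hWinv hWti
  set W' : Submodule F V := W ⊓ LinearMap.ker (aeval T (cyclotomic r F)) with hW'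
  have hW'inv : InvOn T W' := inv_inf hWinv (inv_ker _)
  have hh₁i := irr_of_mem_Fs hh₁
  obtain ⟨G, hG⟩ := dvd_of_mem_Fs hh₁
  have hsep : (cyclotomic r F).Separable := by
    have hmul : (X - C 1 : F[X]) * cyclotomic r F = X ^ r - 1 := Cfsg.Agent.Lib.PrimOrder.mul_cyc r
    have hsep0 : (X ^ r - 1 : F[X]).Separable := by
      have := separable_X_pow_sub_C (1 : F) hrF one_ne_zero
      simpa using this
    exact hsep0.of_dvd (Dvd.intro_left _ hmul)
  have hnG : ¬ h₁ ∣ G := by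
    rintro ⟨k, hk⟩
    have h3 : h₁ * h₁ ∣ cyclotomic r F := by
      rw [hG, hk]
      exact ⟨k, by ring⟩
    exact hh₁i.not_isUnit (hsep.squarefree _ h3)
  have hco : IsCoprime h₁ G := hh₁i.coprime_iff_not_dvd.mpr hnG
  have hG0 : G ≠ 0 := by
    rintro rfl
    exact hnG (dvd_zero _)
  have h3 := Cfsg.Agent.Lib.ElusiveCore.finrank_inf_decomp T (map_le_of_inv hW'inv) hco (by
    intro v hv
    rw [← hG]
    exact hv.2)
  have h4 : (W' ⊓ LinearMap.ker (aeval T G) : Submodule F V) = ⊥ := by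
    by_contra hne
    obtain ⟨w, hw, hw0⟩ := (Submodule.ne_bot_iff _).mp hne
    obtain ⟨h, hh, hhd, w', hw'W, hw'0, hw'⟩ := exists_factor_in hWinv _ G rfl hG0 w hw.1.1 hw0 hw.2
    obtain ⟨h', hh', c, hc⟩ := exists_mem_Fs hh (hhd.trans (Dvd.intro_left _ hG.symm))
    have hk' : aeval T h' w' = 0 := by
      rw [hc, mul_comm, aeval_mul_apply, hw', map_zero]
    have hne' : h' ≠ h₁ := by
      intro heq
      rw [heq] at hc
      have hcu : IsUnit c := (hh₁i.isUnit_or_isUnit hc).resolve_left hh.not_isUnit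
      apply hnG
      refine Dvd.dvd.trans ?_ hhd
      rw [hc]
      exact (IsUnit.mul_right_dvd hcu).mpr dvd_rfl
    exact hw'0 (hzero h' hh' hne' w' hw'W hk')
  rw [h4, finrank_bot, add_zero] at h3
  obtain ⟨a, ha, hb⟩ := hdim h₁ hh₁ (W' ⊓ LinearMap.ker (aeval T h₁)) (inv_inf hW'inv (inv_ker _)) inf_le_right ((hWti.mono inf_le_left).mono inf_le_left)
  refine ⟨a, _, by rw [h1, h3, ha, add_comm], ?_, h2⟩
  have h5 : (2 * a) * (2 * e) ≤ a₁ * (2 * e) := by
    have : (2 * a) * (2 * e) = 2 * (a * (2 * e)) := by ring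
    omega
  exact Nat.le_of_mul_le_mul_right h5 (by omega)

end Cfsg.Agent.Lib.SpTI
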