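import Mathlib
import Cfsg.Agent.Lib.SpTI.Even
import Cfsg.Agent.Lib.SpGU.Bad

/-!
# The backward direction for odd primes different from the characteristic
-/

set_option autoImplicit false
set_option linter.unusedSimpArgs false
set_option linter.unusedVariables false
set_option linter.unusedSectionVars false

namespace Cfsg.Agent.Lib.SpTI

open Matrix Module Polynomial Cfsg Cfsg.Agent.Lib.IsomBlock Cfsg.Agent.Lib.SympWitt Cfsg.Agent.Lib.SympForm

variable {F : Type*} [Field F] [Fintype F] {d : ℕ}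

/-- Numerical choice, `i` odd. -/
theorem exists_ti_of_iso_odd {V : Type*} [AddCommGroup V] [Module F V] [FiniteDimensional F V] {B : V →ₗ[F] V →ₗ[F] F} {T : V →ₗ[F] V}
    {r q : ℕ} [hrf : Fact r.Prime] (hq : Fintype.card F = q) (hr2 : r ≠ 2) (hrF : (r : F) ≠ 0) (halt : ∀ v, B v v = 0)
    (hnd : NDOn B ⊤) (hiso : ∀ u v, B (T u) (T v) = B u v) (hTr : T ^ r = 1)
    {i m : ℕ} (hi : i = orderOf (q : ZMod r)) (hodd : ¬ Even i) (hm : 2 * m ≤ finrank F V)
    (hk : 2 * (m % i) ≤ finrank F V % (2 * i)) :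
    ∃ W : Submodule F V, InvOn T W ∧ TI B W ∧ finrank F W = m := by
  subst hi
  set i := orderOf (q : ZMod r) with hi
  have hB : GoodForm B := Or.inl halt
  have hipos : 0 < i := orderOf_pos' hq hrF
  have htop : InvOn T (⊤ : Submodule F V) := fun _ _ => trivial
  obtain ⟨s, hs⟩ := finrank_fix_add hq hr2 hrF hB hiso hTr hnd htop
  rw [finrank_top] at hs
  have hc : blockDim r q = 2 * i := by
    unfold blockDim
    rw [if_neg hodd]
  rw [hc] at hs
  set f := finrank F (fixS T (⊤ : Submodule F V)) with hf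
  have hkf : finrank F V % (2 * i) ≤ f := by
    rw [hs, Nat.add_mul_mod_self_left]
    exact Nat.mod_le _ _
  have hm' := Nat.div_add_mod m i
  rcases le_total (m / i) s with h1 | h1
  · obtain ⟨W, -, h2, h3, h4⟩ := exists_ti_odd hq hr2 hrF halt hiso hTr hodd (m / i) ⊤ (m % i) hnd htop
      (by
        rw [finrank_top, hs, ← hi]
        have : m / i * (2 * i) ≤ 2 * i * s := by
          calc m / i * (2 * i) ≤ s * (2 * i) := Nat.mul_le_mul_right _ h1
            _ = 2 * i * s := by ring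
        omega) (by omega)
    refine ⟨W, h2, h3, ?_⟩
    rw [h4, ← hi, mul_comm]
    exact hm'
  · have h5 : i * s ≤ i * (m / i) := Nat.mul_le_mul_left _ h1
    obtain ⟨W, -, h2, h3, h4⟩ := exists_ti_odd hq hr2 hrF halt hiso hTr hodd s ⊤ (m - i * s) hnd htop
      (by
        rw [finrank_top, hs, ← hi]
        have : s * (2 * i) = 2 * i * s := by ring
        omega) (by
        have : 2 * i * s = 2 * (i * s) := by ring
        omega)
    refine ⟨W, h2, h3, ?_⟩
    rw [h4, ← hi]
    have : s * i = i * s := by ring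
    omega

/-- Numerical choice, `i` even. -/
theorem exists_ti_of_iso_even {V : Type*} [AddCommGroup V] [Module F V] [FiniteDimensional F V] {B : V →ₗ[F] V →ₗ[F] F} {T : V →ₗ[F] V}
    {r q : ℕ} [hrf : Fact r.Prime] (hq : Fintype.card F = q) (hr2 : r ≠ 2) (hrF : (r : F) ≠ 0) (halt : ∀ v, B v v = 0)
    (hnd : NDOn B ⊤) (hiso : ∀ u v, B (T u) (T v) = B u v) (hTr : T ^ r = 1)
    {i m : ℕ} (hi : i = orderOf (q : ZMod r)) (hev : Even i)
    (hk : 2 * (m % i) ≤ finrank F V % i) (ht : (r - 1) / i + 2 * (m / i) ≤ finrank F V / i) :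
    ∃ W : Submodule F V, InvOn T W ∧ TI B W ∧ finrank F W = m := by
  classical
  subst hi
  set i := orderOf (q : ZMod r) with hi
  have hB : GoodForm B := Or.inl halt
  have hipos : 0 < i := orderOf_pos' hq hrF
  have htop : InvOn T (⊤ : Submodule F V) := fun _ _ => trivial
  obtain ⟨s, hs⟩ := finrank_fix_add hq hr2 hrF hB hiso hTr hnd htop
  rw [finrank_top] at hs
  have hc : blockDim r q = i := by
    unfold blockDim
    rw [if_pos hev]
  rw [hc] at hs
  set f := finrank F (fixS T (⊤ : Submodule F V)) with hf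
  obtain ⟨e, he⟩ := hev
  have he2 : i = 2 * e := by omega
  have hepos : 0 < e := by omega
  set t := (r - 1) / i with ht'
  have hFs : (Fs F r).card = t := by
    have h1 := card_Fs hq hrF (F := F)
    rw [ht', ← h1, Nat.mul_div_cancel _ hipos]
  have hcard : (typesOf T r (⊤ : Submodule F V)).card ≤ t := by
    rw [← hFs]
    apply Finset.card_le_card
    intro h hh
    exact (mem_typesOf.mp hh).1
  have hkf : finrank F V % i ≤ f := by
    rw [hs, Nat.add_mul_mod_self_left]
    exact Nat.mod_le _ _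
  -- notation
  set n' := finrank F V / i with hn'
  set k := finrank F V % i with hk'
  set m' := m / i with hm'
  set l := m % i with hl
  have h1 : i * n' + k = finrank F V := Nat.div_add_mod _ _
  have h2 : i * m' + l = m := Nat.div_add_mod _ _
  have hsn : s ≤ n' := by
    by_contra hlt
    have h3 : i * (n' + 1) ≤ i * s := Nat.mul_le_mul_left _ (by omega)
    have h4 : k < i := Nat.mod_lt _ hipos
    rw [Nat.mul_add] at h3
    omega
  have hfe : f = i * (n' - s) + k := by
    obtain ⟨y, hy⟩ := Nat.exists_eq_add_of_le hsn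
    rw [hy] at h1 ⊢
    rw [Nat.add_sub_cancel_left, Nat.mul_add] at *
    omega
  set a := min m' ((s + 1 - t) / 2) with ha
  have ham : a ≤ m' := min_le_left _ _
  have hal : a ≤ (s + 1 - t) / 2 := min_le_right _ _
  have hiam : i * a ≤ i * m' := Nat.mul_le_mul_left _ ham
  have hcond : a = 0 ∨ (typesOf T r (⊤ : Submodule F V)).card + 2 * a ≤ s + 1 := by
    rcases Nat.eq_zero_or_pos a with h | h
    · exact Or.inl h
    · right
      omega
  have h2b : 2 * (m - a * i) ≤ f := by
    rw [mul_comm a i]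
    rcases eq_or_lt_of_le ham with h | h
    · rw [h]
      omega
    · have h3 : a = (s + 1 - t) / 2 := by
        rw [ha] at h ⊢
        exact min_eq_right (by
          by_contra hne
          rw [not_le] at hne
          rw [min_eq_left hne.le] at h
          omega)
      have h4 : s ≤ t + 2 * a := by omega
      have h5 : 2 * (m' - a) ≤ n' - s := by omega
      have h6 : i * (2 * (m' - a)) ≤ i * (n' - s) := Nat.mul_le_mul_left _ h5
      have h7 : m - i * a = i * (m' - a) + l := by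
        obtain ⟨y, hy⟩ := Nat.exists_eq_add_of_le ham
        rw [hy] at h2 ⊢
        rw [Nat.add_sub_cancel_left]
        rw [Nat.mul_add] at h2
        omega
      rw [h7, hfe]
      have h8 : i * (2 * (m' - a)) = 2 * (i * (m' - a)) := by ring
      omega
  obtain ⟨W, -, h3, h4, h5⟩ := exists_ti_even hq hr2 hrF halt hiso hTr (e := e) (by omega) hepos _ ⊤ s a (m - a * i) rfl hnd htop
    (by rw [finrank_top, hs, ← he2]; ring) hcond h2b
  refine ⟨W, h3, h4, ?_⟩
  rw [h5, ← he2, mul_comm a i]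
  omega

/-- The backward direction for odd primes. -/
theorem backward_odd {r q : ℕ} [hrf : Fact r.Prime] (hq : Fintype.card F = q) (hr2 : r ≠ 2) (hrF : (r : F) ≠ 0) (hd : 0 < d) {m : ℕ} (hmd : m ≤ d)
    {i c : ℕ} (hi : i = orderOf (q : ZMod r)) (hc : c = if Even i then i else 2 * i)
    (hk : 2 * (m % i) ≤ (2 * d) % c) (hev : Odd i ∨ (r - 1) / i + 2 * (m / i) ≤ (2 * d) / i)
    (x : symplecticGroup (Fin d) F) {z : F}
    (hz : ((x ^ r : symplecticGroup (Fin d) F) : Matrix (Fin d ⊕ Fin d) (Fin d ⊕ Fin d) F) = z • (1 : Matrix (Fin d ⊕ Fin d) (Fin d ⊕ Fin d) F)) :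
    ∃ W : Submodule F (Fin d ⊕ Fin d → F), finrank F W = m ∧ (∀ u ∈ W, ∀ v ∈ W, sympForm d F u v = 0) ∧
      W.map (Matrix.toLin' (x : Matrix (Fin d ⊕ Fin d) (Fin d ⊕ Fin d) F)) ≤ W := by
  have hr : r.Prime := hrf.out
  have hz2 : z * z = 1 := Cfsg.Agent.S5961.scalar_sq hd (x ^ r) z hz
  have hz0 : z ≠ 0 := by
    rintro rfl
    simp at hz2
  let X := Matrix.toLin' (x : Matrix (Fin d ⊕ Fin d) (Fin d ⊕ Fin d) F)
  have hXa : ∀ v, X v = (x : Matrix (Fin d ⊕ Fin d) (Fin d ⊕ Fin d) F) *ᵥ v := fun v => Matrix.toLin'_apply _ v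
  let T : (Fin d ⊕ Fin d → F) →ₗ[F] (Fin d ⊕ Fin d → F) := z • X
  have hTa : ∀ v, T v = z • X v := fun v => rfl
  have hXr : X ^ r = z • 1 := by
    show (Matrix.toLin' (x : Matrix (Fin d ⊕ Fin d) (Fin d ⊕ Fin d) F)) ^ r = _
    rw [Cfsg.Agent.Lib.SpGU.toLin_pow]
    have h1 : (x : Matrix (Fin d ⊕ Fin d) (Fin d ⊕ Fin d) F) ^ r = z • (1 : Matrix (Fin d ⊕ Fin d) (Fin d ⊕ Fin d) F) := by
      rw [← hz]
      rfl
    rw [h1, map_smul, Matrix.toLin'_one]
    rfl
  have hTr : T ^ r = 1 := by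
    show (z • X) ^ r = 1
    obtain ⟨l, hl⟩ := hr.odd_of_ne_two hr2
    rw [_root_.smul_pow, hXr, smul_smul, hl, pow_succ, pow_mul, pow_two, hz2, one_pow, one_mul, hz2, one_smul]
  have hiso : ∀ u v, sympB d F (T u) (T v) = sympB d F u v := by
    intro u v
    rw [sympB_apply, sympB_apply, hTa, hTa, sympForm_smul_left, sympForm_smul_right, hXa, hXa, (mem_symplecticGroup_iff_preserves _).1 x.2 u v, ← mul_assoc, hz2, one_mul]
  have halt : ∀ v, sympB d F v v = 0 := fun v => sympForm_self v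
  have hnd : NDOn (sympB d F) ⊤ := fun v _ hv => Cfsg.Agent.S5983.symp_nd v fun w => hv w trivial
  have hfin : finrank F (Fin d ⊕ Fin d → F) = 2 * d := Cfsg.Agent.S5983.finrank_V
  suffices H : ∃ W : Submodule F (Fin d ⊕ Fin d → F), InvOn T W ∧ TI (sympB d F) W ∧ finrank F W = m by
    obtain ⟨W, h1, h2, h3⟩ := H
    refine ⟨W, h3, h2, ?_⟩
    rintro _ ⟨v, hv, rfl⟩
    have h4 : X v = z • T v := by
      rw [hTa, smul_smul, hz2, one_smul]
    show X v ∈ W
    rw [h4]
    exact W.smul_mem _ (h1 v hv)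
  by_cases he : Even i
  · rw [if_pos he] at hc
    subst hc
    rcases hev with h1 | h1
    · exact absurd he (Nat.not_even_iff_odd.mpr h1)
    · exact exists_ti_of_iso_even hq hr2 hrF halt hnd hiso hTr hi he (by rw [hfin]; exact hk) (by rw [hfin]; exact h1)
  · rw [if_neg he] at hc
    subst hc
    exact exists_ti_of_iso_odd hq hr2 hrF halt hnd hiso hTr hi he (by rw [hfin]; omega) (by rw [hfin]; exact hk)

end Cfsg.Agent.Lib.SpTI
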