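import Mathlib
import Cfsg.Agent.Lib.SpParab
import Cfsg.Agent.Lib.ElusiveCount

/-!
# The number of totally isotropic subspaces
-/

set_option autoImplicit false
set_option linter.unusedSimpArgs false
set_option linter.unusedVariables false
set_option linter.unusedSectionVars false

namespace Cfsg.Agent.Lib.SpTI

open Module Cfsg Cfsg.Agent.Lib.SpParab Cfsg.Agent.Lib.SympForm Cfsg.Agent.Lib.ElusiveCount

variable {F : Type*} [Field F] [Fintype F]

/-- Totally isotropic subspaces. -/
abbrev TISet (d m : ℕ) (F : Type*) [Field F] : Type _ :=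
  {W : Submodule F (Fin d ⊕ Fin d → F) // finrank F W = m ∧ ∀ u ∈ W, ∀ v ∈ W, sympForm d F u v = 0}

/-- Double counting of frames. -/
theorem card_ti_mul (d m : ℕ) :
    Nat.card (TISet d m F) * ∏ i : Fin m, (Fintype.card F ^ m - Fintype.card F ^ (i : ℕ)) =
      ∏ i ∈ Finset.range m, (Fintype.card F ^ (2 * d - i) - Fintype.card F ^ i) := by
  classical
  haveI : Finite (Submodule F (Fin d ⊕ Fin d → F)) := Finite.of_injective _ SetLike.coe_injective
  let Q : Submodule F (Fin d ⊕ Fin d → F) → Prop := fun W => finrank F W = m ∧ ∀ u ∈ W, ∀ v ∈ W, sympForm d F u v = 0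
  let f : ↥(Frame d m F) → Submodule F (Fin d ⊕ Fin d → F) := fun a => Submodule.span F (Set.range a.1)
  have h2 := card_fiberwise f Q (∏ i : Fin m, (Fintype.card F ^ m - Fintype.card F ^ (i : ℕ))) (by
    rintro W ⟨hW1, hW2⟩
    rw [← card_WFrame W hW1]
    refine Nat.card_congr
      { toFun := fun a => ⟨a.1.1, a.1.2.1, fun i => ?_⟩
        invFun := fun a => ⟨⟨a.1, a.2.1, fun i j => hW2 _ (a.2.2 i) _ (a.2.2 j)⟩, span_eq_of_WFrame hW1 a.2⟩
        left_inv := fun a => rfl
        right_inv := fun a => rfl }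
    have h3 : f a.1 = W := a.2
    have h5 : a.1.1 i ∈ f a.1 := Submodule.subset_span ⟨i, rfl⟩
    rw [h3] at h5
    exact h5)
  have h3 : ∀ a : ↥(Frame d m F), Q (f a) := by
    intro a
    refine ⟨?_, ?_⟩
    · have := finrank_span_eq_card a.2.1
      simpa using this
    · intro u hu v hv
      induction hu using Submodule.span_induction with
      | mem x hx =>
        obtain ⟨i, rfl⟩ := hx
        induction hv using Submodule.span_induction with
        | mem y hy =>
          obtain ⟨j, rfl⟩ := hy
          exact a.2.2 i j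
        | zero => exact sympForm_zero_right _
        | add x y _ _ hx hy => rw [sympForm_add_right, hx, hy, add_zero]
        | smul c x _ hx => rw [sympForm_smul_right, hx, mul_zero]
      | zero => exact sympForm_zero_left _
      | add x y _ _ hx hy => rw [sympForm_add_left, hx, hy, add_zero]
      | smul c x _ hx => rw [sympForm_smul_left, hx, mul_zero]
  have h4 : Nat.card {a // Q (f a)} = Nat.card ↥(Frame d m F) := Nat.card_congr
    { toFun := fun a => a.1
      invFun := fun a => ⟨a, h3 a⟩
      left_inv := fun a => rfl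
      right_inv := fun a => rfl }
  rw [h4, card_Frame] at h2
  exact h2.symm

/-- The number of totally isotropic subspaces, up to the cancellation of powers of `q`. -/
theorem card_ti_mul' {d m : ℕ} (hm : m ≤ d) :
    Nat.card (TISet d m F) * BB (Fintype.card F) m m =
      ∏ j ∈ Finset.range m, (Fintype.card F ^ (2 * (d - j)) - 1) := by
  have h1 := card_ti_mul (F := F) d m
  have hq : 1 ≤ Fintype.card F := Fintype.card_pos
  set q := Fintype.card F with hqdef
  rw [prod_sub_pow _ _ _ hq le_rfl] at h1
  have h2 : ∏ i ∈ Finset.range m, (q ^ (2 * d - i) - q ^ i) = (∏ j ∈ Finset.range m, q ^ j) * ∏ j ∈ Finset.range m, (q ^ (2 * (d - j)) - 1) := by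
    rw [← Finset.prod_mul_distrib]
    apply Finset.prod_congr rfl
    intro j hj
    rw [Finset.mem_range] at hj
    have h3 : q ^ (2 * d - j) = q ^ j * q ^ (2 * (d - j)) := by
      rw [← pow_add]
      congr 1
      omega
    rw [h3, Nat.mul_sub_one]
  rw [h2] at h1
  have hpos : 0 < ∏ j ∈ Finset.range m, q ^ j := Finset.prod_pos fun j _ => pow_pos (by omega) _
  apply Nat.eq_of_mul_eq_mul_left hpos
  rw [← h1]
  ring

/-- A prime dividing the number of totally isotropic subspaces. -/
theorem prime_dvd_card_ti {p : ℕ} [hp : Fact p.Prime] [CharP F p] {d m r : ℕ} (hm : m ≤ d) (hr : r.Prime)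
    (h : r ∣ Nat.card (TISet d m F)) :
    r ≠ p ∧ ∃ j, j < m ∧ r ∣ Fintype.card F ^ (2 * (d - j)) - 1 := by
  have h1 := card_ti_mul' (F := F) hm
  have h2 : r ∣ ∏ j ∈ Finset.range m, (Fintype.card F ^ (2 * (d - j)) - 1) := by
    rw [← h1]
    exact h.trans (dvd_mul_right _ _)
  obtain ⟨j, hj, hj2⟩ := (Prime.dvd_finsetProd_iff hr.prime _).mp h2
  rw [Finset.mem_range] at hj
  exact ⟨ne_char_of_dvd (p := p) hr (by omega) hj2, j, hj, hj2⟩

end Cfsg.Agent.Lib.SpTI
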