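import Mathlib
import Cfsg.Agent.Lib.SpTI.Bound
import Cfsg.Agent.Lib.SpGU.Bad

/-!
# Model elements of the symplectic group
-/

set_option autoImplicit false
set_option linter.unusedSimpArgs false
set_option linter.unusedVariables false
set_option linter.unusedSectionVars false

namespace Cfsg.Agent.Lib.SpTI

open Matrix Module Polynomial Cfsg Cfsg.Agent.Lib.IsomBlock Cfsg.Agent.Lib.SympWitt Cfsg.Agent.Lib.SympForm

variable {F : Type*} [Field F] [Fintype F] {d : ℕ}

omit [Fintype F] in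
/-- Elements acting blockwise. -/
theorem exists_x_model {κ : Type*} [Fintype κ] [DecidableEq κ] {r c' m₀ : ℕ} (hd : d = Fintype.card κ * c' + m₀)
    (Tj : κ → (Fin c' ⊕ Fin c' → F) →ₗ[F] (Fin c' ⊕ Fin c' → F)) (hpow : ∀ j, Tj j ^ r = 1)
    (hiso : ∀ j u v, sympForm c' F (Tj j u) (Tj j v) = sympForm c' F u v) :
    ∃ x : symplecticGroup (Fin d) F, x ^ r = 1 ∧ ∃ E : (Fin d ⊕ Fin d → F) ≃ₗ[F] ((κ → Fin c' ⊕ Fin c' → F) × (Fin m₀ ⊕ Fin m₀ → F)),
      ∀ v, E ((x : Matrix (Fin d ⊕ Fin d) (Fin d ⊕ Fin d) F) *ᵥ v) = (fun j => Tj j ((E v).1 j), (E v).2) := by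
  classical
  let W := Fin c' ⊕ Fin c' → F
  let M := (κ → W) × (Fin m₀ ⊕ Fin m₀ → F)
  let BM : M →ₗ[F] M →ₗ[F] F :=
    ∑ j : κ, (sympB c' F).compl₁₂ ((LinearMap.proj j) ∘ₗ LinearMap.fst F _ _) ((LinearMap.proj j) ∘ₗ LinearMap.fst F _ _) +
      (sympB m₀ F).compl₁₂ (LinearMap.snd F _ _) (LinearMap.snd F _ _)
  have hBM : ∀ a b : M, BM a b = ∑ j, sympForm c' F (a.1 j) (b.1 j) + sympForm m₀ F a.2 b.2 := by
    intro a b
    simp [BM, LinearMap.sum_apply]
    rfl
  have hfin : finrank F M = 2 * d := by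
    simp only [M, W]
    rw [Module.finrank_prod, Module.finrank_pi_fintype]
    simp only [Cfsg.Agent.S5983.finrank_V, Finset.sum_const, Finset.card_univ, smul_eq_mul, hd]
    ring
  obtain ⟨E, hE⟩ := Cfsg.Agent.Lib.SympEquiv.exists_symp_equiv BM
    (by
      intro v
      rw [hBM]
      simp [sympForm_self])
    (by
      intro v hv
      apply Prod.ext
      · funext j
        apply Cfsg.Agent.S5983.symp_nd
        intro w
        have := hv (Pi.single j w, 0)
        rw [hBM] at this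
        rw [Finset.sum_eq_single j] at this
        · simpa [sympForm_zero_right] using this
        · intro l _ hl
          simp [Pi.single_eq_of_ne hl, sympForm_zero_right]
        · simp
      · apply Cfsg.Agent.S5983.symp_nd
        intro w
        have := hv (0, w)
        rw [hBM] at this
        simpa [sympForm_zero_right] using this) hfin
  let TM : M →ₗ[F] M := LinearMap.prodMap (LinearMap.pi fun j => Tj j ∘ₗ LinearMap.proj j) LinearMap.id
  have hTM : ∀ a : M, TM a = (fun j => Tj j (a.1 j), a.2) := fun a => rfl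
  let g : (Fin d ⊕ Fin d → F) →ₗ[F] (Fin d ⊕ Fin d → F) :=
    (E.symm : M →ₗ[F] (Fin d ⊕ Fin d → F)) ∘ₗ TM ∘ₗ (E : (Fin d ⊕ Fin d → F) →ₗ[F] M)
  have hg : ∀ v, g v = E.symm (TM (E v)) := fun v => rfl
  have hgs : ∀ u v, sympForm d F (g u) (g v) = sympForm d F u v := by
    intro u v
    rw [← hE, ← hE, hg, hg, LinearEquiv.apply_symm_apply, LinearEquiv.apply_symm_apply, hBM, hBM, hTM, hTM]
    simp only [hiso]
  obtain ⟨x, hx⟩ := exists_sp_of_equiv g hgs
  have hxE : ∀ v, E ((x : Matrix (Fin d ⊕ Fin d) (Fin d ⊕ Fin d) F) *ᵥ v) = TM (E v) := by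
    intro v
    rw [hx, hg, LinearEquiv.apply_symm_apply]
  have hxk : ∀ (k : ℕ) (v : Fin d ⊕ Fin d → F), E (((x ^ k : symplecticGroup (Fin d) F) : Matrix (Fin d ⊕ Fin d) (Fin d ⊕ Fin d) F) *ᵥ v) =
      (fun j => (Tj j ^ k) ((E v).1 j), (E v).2) := by
    intro k
    induction k with
    | zero =>
      intro v
      simp
    | succ k ih =>
      intro v
      rw [pow_succ]
      show E ((((x ^ k : symplecticGroup (Fin d) F) : Matrix (Fin d ⊕ Fin d) (Fin d ⊕ Fin d) F) * (x : Matrix (Fin d ⊕ Fin d) (Fin d ⊕ Fin d) F)) *ᵥ v) = _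
      rw [← Matrix.mulVec_mulVec, ih, hxE, hTM]
      simp only
      congr 1
  refine ⟨x, ?_, E, fun v => by rw [hxE, hTM]⟩
  apply Subtype.ext
  apply Matrix.toLin'.injective
  apply LinearMap.ext
  intro v
  apply E.injective
  rw [Matrix.toLin'_apply, hxk]
  simp only [hpow]
  simp

section coords

omit [Fintype F]

variable {V W₀ W₁ : Type*} [AddCommGroup V] [Module F V] [FiniteDimensional F V] [AddCommGroup W₀] [Module F W₀] [FiniteDimensional F W₀]
  [AddCommGroup W₁] [Module F W₁] [FiniteDimensional F W₁] {κ : Type*} [Fintype κ]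
  {X : V →ₗ[F] V} {Tj : κ → W₀ →ₗ[F] W₀} (E : V ≃ₗ[F] (κ → W₀) × W₁)

include E in
theorem pow_model (hE : ∀ v, E (X v) = (fun j => Tj j ((E v).1 j), (E v).2)) (n : ℕ) (v : V) :
    E ((X ^ n) v) = (fun j => (Tj j ^ n) ((E v).1 j), (E v).2) := by
  induction n with
  | zero => simp
  | succ n ih =>
    rw [pow_succ', Module.End.mul_apply, hE, ih]
    simp only [pow_succ', Module.End.mul_apply]

theorem aeval_model (hE : ∀ v, E (X v) = (fun j => Tj j ((E v).1 j), (E v).2)) (g : F[X]) (v : V) :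
    E (aeval X g v) = (fun j => aeval (Tj j) g ((E v).1 j), g.eval 1 • (E v).2) := by
  induction g using Polynomial.induction_on' with
  | add p q hp hq =>
    simp only [map_add, LinearMap.add_apply, hp, hq, eval_add, add_smul]
    rfl
  | monomial n a =>
    simp only [aeval_monomial, eval_monomial, one_pow, mul_one, Module.End.mul_apply]
    have h1 : ∀ (Y : Module.End F V) (y : V), (algebraMap F (Module.End F V) a) y = a • y := fun Y y => rfl
    have h2 : ∀ (y : W₀) (j : κ), (algebraMap F (Module.End F W₀) a) y = a • y := fun y j => rfl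
    simp only [Module.algebraMap_end_apply, map_smul, pow_model E hE]
    rfl

/-- The kernel of a polynomial lies in the blocks it does not kill injectively. -/
theorem finrank_ker_le {κ' : Type*} [Fintype κ'] (hE : ∀ v, E (X v) = (fun j => Tj j ((E v).1 j), (E v).2)) (ι : κ' → κ) {h : F[X]} (h1 : h.eval 1 ≠ 0)
    (hcomp : ∀ j, j ∉ Set.range ι → ∀ w, aeval (Tj j) h w = 0 → w = 0) :
    finrank F (LinearMap.ker (aeval X h)) ≤ Fintype.card κ' * finrank F W₀ := by
  let φ : LinearMap.ker (aeval X h) →ₗ[F] (κ' → W₀) :=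
    LinearMap.pi fun l => (LinearMap.proj (ι l)) ∘ₗ (LinearMap.fst F (κ → W₀) W₁) ∘ₗ (E : V →ₗ[F] (κ → W₀) × W₁) ∘ₗ (Submodule.subtype _)
  have hφ : ∀ v l, φ v l = (E v.1).1 (ι l) := fun v l => rfl
  have hinj : Function.Injective φ := by
    rw [← LinearMap.ker_eq_bot, LinearMap.ker_eq_bot']
    rintro ⟨v, hv⟩ hv0
    apply Subtype.ext
    apply E.injective
    have hk : aeval X h v = 0 := hv
    have h2 := aeval_model E hE h v
    rw [hk, map_zero] at h2
    show E v = E 0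
    rw [map_zero]
    apply Prod.ext
    · funext j
      by_cases hj : j ∈ Set.range ι
      · obtain ⟨l, rfl⟩ := hj
        have := congrFun hv0 l
        rw [hφ] at this
        exact this
      · apply hcomp j hj
        have := congrFun (congrArg Prod.fst h2) j
        exact this.symm
    · have := congrArg Prod.snd h2
      have h3 : h.eval 1 • (E v).2 = 0 := this.symm
      exact (smul_eq_zero.mp h3).resolve_left h1
  have h3 := LinearMap.finrank_le_finrank_of_injective hinj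
  rw [Module.finrank_pi_fintype] at h3
  simpa using h3

/-- The fixed space in the model. -/
theorem finrank_fix_le (hE : ∀ v, E (X v) = (fun j => Tj j ((E v).1 j), (E v).2)) (hfree : ∀ j u, Tj j u = u → u = 0) :
    finrank F (fixS X ⊤) ≤ finrank F W₁ := by
  let φ : fixS X ⊤ →ₗ[F] W₁ := (LinearMap.snd F (κ → W₀) W₁) ∘ₗ (E : V →ₗ[F] (κ → W₀) × W₁) ∘ₗ (Submodule.subtype _)
  have hφ : ∀ v, φ v = (E v.1).2 := fun v => rfl
  have hinj : Function.Injective φ := by
    rw [← LinearMap.ker_eq_bot, LinearMap.ker_eq_bot']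
    rintro ⟨v, hv⟩ hv0
    apply Subtype.ext
    apply E.injective
    show E v = E 0
    rw [map_zero]
    have h1 := hE v
    rw [(mem_fixS.mp hv).2] at h1
    apply Prod.ext
    · funext j
      apply hfree j
      have := congrFun (congrArg Prod.fst h1) j
      exact this.symm
    · exact hv0
  exact LinearMap.finrank_le_finrank_of_injective hinj

end coords

/-- Distinct normalized factors are coprime. -/
theorem fs_coprime {r : ℕ} {h h' : F[X]} (hh : h ∈ Fs F r) (hh' : h' ∈ Fs F r) (hne : h ≠ h') : IsCoprime h h' := by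
  classical
  rw [(irr_of_mem_Fs hh).coprime_iff_not_dvd]
  intro hd
  apply hne
  have a := (irr_of_mem_Fs hh).associated_of_dvd (irr_of_mem_Fs hh') hd
  have h1 := normalize_eq_normalize a.dvd a.symm.dvd
  rwa [UniqueFactorizationMonoid.normalize_normalized_factor h (mem_Fs.mp hh), UniqueFactorizationMonoid.normalize_normalized_factor h' (mem_Fs.mp hh')] at h1

/-- Elements of a prescribed type. -/
theorem exists_type_elt {r q c' : ℕ} [hrf : Fact r.Prime] (hq : Fintype.card F = q) (hr2 : r ≠ 2) (hrF : (r : F) ≠ 0) (hc : orderOf (q : ZMod r) = 2 * c') (hc'0 : 0 < c')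
    {h : F[X]} (hh : Irreducible h) (hhd : h ∣ cyclotomic r F) :
    ∃ T : (Fin c' ⊕ Fin c' → F) →ₗ[F] (Fin c' ⊕ Fin c' → F), T ^ r = 1 ∧ (∀ u v, sympForm c' F (T u) (T v) = sympForm c' F u v) ∧ aeval T h = 0 := by
  have hb : blockDim r q = 2 * c' := by
    unfold blockDim
    rw [if_pos (by rw [hc]; exact even_two_mul c'), hc]
  obtain ⟨T₀, h1, h2, h3⟩ := Cfsg.Agent.S5961.exists_block_elt hq hr2 hrF hb
  have hfin : finrank F (Fin c' ⊕ Fin c' → F) = 2 * c' := Cfsg.Agent.S5983.finrank_V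
  obtain ⟨v, hv⟩ : ∃ v : Fin c' ⊕ Fin c' → F, v ≠ 0 := by
    have hn : Nontrivial (Fin c' ⊕ Fin c' → F) := Module.nontrivial_of_finrank_pos (R := F) (by omega)
    exact exists_ne 0
  have hw0 : T₀ v - v ≠ 0 := fun e => hv (h3 v (sub_eq_zero.mp e))
  obtain ⟨h', hh', hh'd, w', hw', hk⟩ := exists_factor_vec T₀ _ (cyclotomic r F) rfl (cyclotomic_ne_zero r F) _ hw0 (cyc_kill h1 v)
  obtain ⟨U, -, -, hUfin, hUk, -, -⟩ := exists_irr_span T₀ h' hh' w' hw' hk
  have hU : U = ⊤ := Submodule.eq_top_of_finrank_eq (by rw [hUfin, natDegree_factor hq hrF h' hh' hh'd, hc, hfin])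
  have hT₀ : aeval T₀ h' = 0 := LinearMap.ext fun u => hUk u (by rw [hU]; trivial)
  haveI : Fact (Irreducible h') := ⟨hh'⟩
  let E := AdjoinRoot h'
  let ξ : E := AdjoinRoot.root h'
  have hmul : (X - C 1 : F[X]) * cyclotomic r F = X ^ r - 1 := Cfsg.Agent.Lib.PrimOrder.mul_cyc r
  have hξ0 : aeval ξ h' = 0 := by
    rw [AdjoinRoot.aeval_eq]
    exact AdjoinRoot.mk_self
  have hξc : aeval ξ (cyclotomic r F) = 0 := by
    obtain ⟨g, hg⟩ := hh'd
    rw [hg, map_mul, hξ0, zero_mul]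
  have hξr : ξ ^ r = 1 := by
    have h4 : aeval ξ (X ^ r - 1 : F[X]) = 0 := by
      rw [← hmul, map_mul, hξc, mul_zero]
    simpa [sub_eq_zero] using h4
  have hξ1 : ξ ≠ 1 := by
    intro e
    rw [e, ← map_one (algebraMap F E), aeval_algebraMap_apply, coe_aeval_eq_eval, eval_one_cyclotomic_prime] at hξc
    apply hrF
    exact (map_eq_zero (algebraMap F E)).mp hξc
  have prim : IsPrimitiveRoot ξ r := by
    have h4 := orderOf_eq_prime hξr hξ1
    rw [← h4]
    exact IsPrimitiveRoot.orderOf ξ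
  obtain ⟨g, hg⟩ : h ∣ X ^ r - 1 := hhd.trans (Dvd.intro_left _ hmul)
  have hX0 : (X ^ r - 1 : E[X]) ≠ 0 := X_pow_sub_C_ne_zero hrf.out.pos (1 : E)
  have hsplit : (h.map (algebraMap F E)).Splits := by
    refine Splits.of_dvd (X_pow_sub_one_splits prim) hX0 ?_
    refine ⟨g.map (algebraMap F E), ?_⟩
    rw [← Polynomial.map_mul, ← hg]
    simp
  obtain ⟨α, hα⟩ := hsplit.exists_eval_eq_zero (by
    rw [degree_map]
    rw [degree_eq_natDegree hh.ne_zero]
    have := hh.natDegree_pos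
    intro h5
    have h6 : h.natDegree = 0 := by exact_mod_cast h5
    omega)
  have hαa : aeval α h = 0 := by
    rw [aeval_def, ← eval_map]
    exact hα
  have hαr : α ^ r = 1 := by
    have h4 : aeval α (X ^ r - 1 : F[X]) = 0 := by
      rw [hg, map_mul, hαa, zero_mul]
    simpa [sub_eq_zero] using h4
  obtain ⟨b, -, hb'⟩ := prim.eq_pow_of_pow_eq_one hαr
  have hdvd : h' ∣ h.comp (X ^ b) := by
    rw [← AdjoinRoot.mk_eq_zero, ← AdjoinRoot.aeval_eq, aeval_comp]
    simp only [map_pow, aeval_X]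
    show aeval (ξ ^ b) h = 0
    rw [hb']
    exact hαa
  refine ⟨T₀ ^ b, ?_, fun u v => form_pow (B := sympB c' F) h2 b u v, ?_⟩
  · rw [← pow_mul, mul_comm, pow_mul, h1, one_pow]
  · have h5 : aeval T₀ (h.comp (X ^ b)) = aeval (T₀ ^ b) h := by
      rw [aeval_comp]
      simp only [map_pow, aeval_X]
    rw [← h5]
    obtain ⟨k, hk⟩ := hdvd
    rw [hk, map_mul, hT₀, zero_mul]

/-- Elements with prescribed types of blocks. -/
theorem exists_x_types {r q c' m₀ a₁ : ℕ} [hrf : Fact r.Prime] (hq : Fintype.card F = q) (hr2 : r ≠ 2) (hrF : (r : F) ≠ 0)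
    (hc : orderOf (q : ZMod r) = 2 * c') (hc'0 : 0 < c') {h₁ : F[X]} (hh₁ : h₁ ∈ Fs F r)
    (S : Finset F[X]) (hS : ∀ h ∈ S, h ∈ Fs F r ∧ h ≠ h₁) (hd : d = (a₁ + S.card) * c' + m₀) :
    ∃ x : symplecticGroup (Fin d) F, x ^ r = 1 ∧
      finrank F (LinearMap.ker (aeval (Matrix.toLin' (x : Matrix (Fin d ⊕ Fin d) (Fin d ⊕ Fin d) F)) h₁)) ≤ a₁ * (2 * c') ∧
      (∀ h ∈ Fs F r, h ≠ h₁ → finrank F (LinearMap.ker (aeval (Matrix.toLin' (x : Matrix (Fin d ⊕ Fin d) (Fin d ⊕ Fin d) F)) h)) ≤ 2 * c') ∧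
      finrank F (fixS (Matrix.toLin' (x : Matrix (Fin d ⊕ Fin d) (Fin d ⊕ Fin d) F)) ⊤) ≤ 2 * m₀ := by
  classical
  have hex : ∀ h ∈ Fs F r, ∃ T : (Fin c' ⊕ Fin c' → F) →ₗ[F] (Fin c' ⊕ Fin c' → F), T ^ r = 1 ∧ (∀ u v, sympForm c' F (T u) (T v) = sympForm c' F u v) ∧ aeval T h = 0 :=
    fun h hh => exists_type_elt hq hr2 hrF hc hc'0 (irr_of_mem_Fs hh) (dvd_of_mem_Fs hh)
  choose! Th hTh1 hTh2 hTh3 using hex
  let κ := Fin a₁ ⊕ S
  let τ : κ → F[X] := Sum.elim (fun _ => h₁) (fun h => h.1)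
  have hτ : ∀ j, τ j ∈ Fs F r := by
    rintro (j | ⟨h, hh⟩)
    · exact hh₁
    · exact (hS h hh).1
  let Tj : κ → _ := fun j => Th (τ j)
  have hcard : Fintype.card κ = a₁ + S.card := by
    simp [κ]
  obtain ⟨x, hx, E, hE⟩ := exists_x_model (κ := κ) (r := r) (c' := c') (m₀ := m₀) (d := d) (by rw [hcard]; exact hd) Tj (fun j => hTh1 _ (hτ j)) (fun j => hTh2 _ (hτ j))
  have hE' : ∀ v, E (Matrix.toLin' (x : Matrix (Fin d ⊕ Fin d) (Fin d ⊕ Fin d) F) v) = (fun j => Tj j ((E v).1 j), (E v).2) := by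
    intro v
    rw [Matrix.toLin'_apply]
    exact hE v
  have hfree : ∀ j u, Tj j u = u → u = 0 := by
    intro j u hu
    refine fix_free_of_factor hrF (dvd_of_mem_Fs (hτ j)) u ?_ hu
    show aeval (Th (τ j)) (τ j) u = 0
    rw [hTh3 _ (hτ j)]
    rfl
  have heval : ∀ h ∈ Fs F r, h.eval 1 ≠ 0 := by
    intro h hh h0
    obtain ⟨g, hg⟩ := dvd_of_mem_Fs hh
    apply hrF
    rw [← eval_one_cyclotomic_prime (R := F) (p := r), hg, eval_mul, h0, zero_mul]
  have hcomp : ∀ h ∈ Fs F r, ∀ j, τ j ≠ h → ∀ w, aeval (Tj j) h w = 0 → w = 0 := by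
    intro h hh j hj w hw
    obtain ⟨a, b, hab⟩ := fs_coprime hh (hτ j) hj.symm
    have h2 : aeval (Tj j) (a * h + b * τ j) w = w := by
      rw [hab, map_one]
      rfl
    rw [map_add, LinearMap.add_apply, aeval_mul_apply, hw, map_zero, zero_add, aeval_mul_apply] at h2
    have h3 : aeval (Tj j) (τ j) = 0 := hTh3 _ (hτ j)
    rw [h3] at h2
    rw [← h2]
    simp
  have hW₀ : finrank F (Fin c' ⊕ Fin c' → F) = 2 * c' := Cfsg.Agent.S5983.finrank_V
  refine ⟨x, hx, ?_, ?_, ?_⟩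
  · have h1 := finrank_ker_le E hE' (κ' := Fin a₁) Sum.inl (heval h₁ hh₁) (by
      rintro (j | ⟨h, hh⟩) hj
      · exact absurd ⟨j, rfl⟩ hj
      · exact hcomp h₁ hh₁ _ (hS h hh).2)
    rwa [hW₀, Fintype.card_fin] at h1
  · intro h hh hne
    by_cases hmem : h ∈ S
    · have h1 := finrank_ker_le E hE' (κ' := Unit) (fun _ => Sum.inr ⟨h, hmem⟩) (heval h hh) (by
        rintro (j | ⟨h', hh'⟩) hj
        · exact hcomp h hh _ hne.symm
        · refine hcomp h hh _ ?_
          show h' ≠ h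
          rintro rfl
          exact hj ⟨(), rfl⟩)
      rwa [hW₀, Fintype.card_unit, one_mul] at h1
    · have h1 := finrank_ker_le E hE' (κ' := Empty) Empty.elim (heval h hh) (by
        rintro (j | ⟨h', hh'⟩) hj
        · exact hcomp h hh _ hne.symm
        · refine hcomp h hh _ ?_
          show h' ≠ h
          rintro rfl
          exact hmem hh')
      rw [Fintype.card_empty, zero_mul] at h1
      omega
  · have h1 := finrank_fix_le E hE' hfree
    rwa [Cfsg.Agent.S5983.finrank_V] at h1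

/-- An element of odd prime order moving some vector is not scalar. -/
theorem not_scalar_of_fix {r : ℕ} (hr : r.Prime) (hr2 : r ≠ 2) (hd : 0 < d) (x : symplecticGroup (Fin d) F) (hx : x ^ r = 1)
    (hfix : finrank F (fixS (Matrix.toLin' (x : Matrix (Fin d ⊕ Fin d) (Fin d ⊕ Fin d) F)) ⊤) < 2 * d) (z : F) :
    (x : Matrix (Fin d ⊕ Fin d) (Fin d ⊕ Fin d) F) ≠ z • (1 : Matrix (Fin d ⊕ Fin d) (Fin d ⊕ Fin d) F) := by
  intro hz
  have hz2 : z * z = 1 := Cfsg.Agent.S5961.scalar_sq hd x z hz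
  have h1 : (x : Matrix (Fin d ⊕ Fin d) (Fin d ⊕ Fin d) F) ^ r = 1 := by
    have := congrArg (fun y : symplecticGroup (Fin d) F => (y : Matrix (Fin d ⊕ Fin d) (Fin d ⊕ Fin d) F)) hx
    simpa using this
  rw [hz, _root_.smul_pow, one_pow] at h1
  have h2 : z ^ r = 1 := by
    have h3 := congrFun (congrFun h1 (Sum.inl ⟨0, hd⟩)) (Sum.inl ⟨0, hd⟩)
    simpa using h3
  obtain ⟨k, hk⟩ := hr.odd_of_ne_two hr2
  have h3 : z = 1 := by
    rw [hk, pow_succ, pow_mul, pow_two, hz2, one_pow, one_mul] at h2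
    exact h2
  have h4 : fixS (Matrix.toLin' (x : Matrix (Fin d ⊕ Fin d) (Fin d ⊕ Fin d) F)) ⊤ = ⊤ := by
    rw [eq_top_iff]
    intro v _
    rw [mem_fixS]
    refine ⟨trivial, ?_⟩
    rw [Matrix.toLin'_apply, hz, h3]
    simp
  rw [h4, finrank_top, Cfsg.Agent.S5983.finrank_V] at hfix
  omega

end Cfsg.Agent.Lib.SpTI
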