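import Mathlib
import Cfsg.Agent.Lib.SpTI.Model

/-!
# The forward direction for odd primes different from the characteristic
-/

set_option autoImplicit false
set_option linter.unusedSimpArgs false
set_option linter.unusedVariables false
set_option linter.unusedSectionVars false

namespace Cfsg.Agent.Lib.SpTI

open Matrix Module Polynomial Cfsg Cfsg.Agent.Lib.IsomBlock Cfsg.Agent.Lib.SympWitt Cfsg.Agent.Lib.SympForm

variable {F : Type*} [Field F] [Fintype F] {d : ℕ}

/-- The forward direction for odd primes. -/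
theorem forward_odd {r q : ℕ} [hrf : Fact r.Prime] (hq : Fintype.card F = q) (hr2 : r ≠ 2) (hrF : (r : F) ≠ 0) (hd : 0 < d) {m : ℕ} (hm1 : 1 ≤ m) (hmd : m ≤ d)
    {i c : ℕ} (hi : i = orderOf (q : ZMod r)) (hc : c = if Even i then i else 2 * i)
    (hj : ∃ j < m, r ∣ q ^ (2 * (d - j)) - 1)
    (H : ∀ x : symplecticGroup (Fin d) F, x ^ r = 1 → (∀ z : F, (x : Matrix (Fin d ⊕ Fin d) (Fin d ⊕ Fin d) F) ≠ z • (1 : Matrix (Fin d ⊕ Fin d) (Fin d ⊕ Fin d) F)) →
      ∃ W : Submodule F (Fin d ⊕ Fin d → F), InvOn (Matrix.toLin' (x : Matrix (Fin d ⊕ Fin d) (Fin d ⊕ Fin d) F)) W ∧ TI (sympB d F) W ∧ finrank F W = m) :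
    i ≤ m ∧ 2 * (m % i) ≤ (2 * d) % c ∧ (Odd i ∨ (r - 1) / i + 2 * (m / i) ≤ (2 * d) / i) := by
  classical
  have hr := hrf.out
  have hipos : 0 < i := by
    rw [hi]
    exact orderOf_pos' hq hrF
  have halt : ∀ v, sympB d F v v = 0 := fun v => sympForm_self v
  have hnd : NDOn (sympB d F) ⊤ := fun v _ hv => Cfsg.Agent.S5983.symp_nd v fun w => hv w trivial
  have hisoX : ∀ x : symplecticGroup (Fin d) F, ∀ u v, sympB d F (Matrix.toLin' (x : Matrix (Fin d ⊕ Fin d) (Fin d ⊕ Fin d) F) u) (Matrix.toLin' (x : Matrix (Fin d ⊕ Fin d) (Fin d ⊕ Fin d) F) v) = sympB d F u v := by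
    intro x u v
    rw [sympB_apply, sympB_apply, Matrix.toLin'_apply, Matrix.toLin'_apply]
    exact (mem_symplecticGroup_iff_preserves _).1 x.2 u v
  have hTrX : ∀ x : symplecticGroup (Fin d) F, x ^ r = 1 → (Matrix.toLin' (x : Matrix (Fin d ⊕ Fin d) (Fin d ⊕ Fin d) F)) ^ r = 1 := by
    intro x hx
    rw [Cfsg.Agent.Lib.SpGU.toLin_pow]
    have h1 : (x : Matrix (Fin d ⊕ Fin d) (Fin d ⊕ Fin d) F) ^ r = 1 := by
      have := congrArg (fun y : symplecticGroup (Fin d) F => (y : Matrix (Fin d ⊕ Fin d) (Fin d ⊕ Fin d) F)) hx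
      simpa using this
    rw [h1, Matrix.toLin'_one]
    rfl
  -- the block size
  obtain ⟨j, hjm, hjd⟩ := hj
  have hq1 : 1 ≤ q := by
    rw [← hq]
    exact Fintype.card_pos
  have hdvdj : i ∣ 2 * (d - j) := by
    rw [hi]
    apply orderOf_dvd_of_pow_eq_one
    have h1 : ((q ^ (2 * (d - j)) - 1 : ℕ) : ZMod r) = 0 := (ZMod.natCast_eq_zero_iff _ _).mpr hjd
    rw [Nat.cast_sub (Nat.one_le_pow _ _ hq1)] at h1
    push_cast at h1
    exact sub_eq_zero.mp h1
  obtain ⟨c', hb, hcc, hcpos, hci, hdvd, hev⟩ : ∃ c', blockDim r q = 2 * c' ∧ c = 2 * c' ∧ 0 < c' ∧ c' ≤ i ∧ c' ∣ d - j ∧ (Even i → i = 2 * c') := by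
    rcases Nat.even_or_odd i with he | ho
    · obtain ⟨k, hk⟩ := he
      refine ⟨k, ?_, ?_, by omega, by omega, ?_, fun _ => by omega⟩
      · unfold blockDim
        rw [← hi, if_pos ⟨k, hk⟩]
        omega
      · rw [hc, if_pos ⟨k, hk⟩]
        omega
      · have h1 : 2 * k ∣ 2 * (d - j) := by
          rw [show 2 * k = i by omega]
          exact hdvdj
        exact Nat.dvd_of_mul_dvd_mul_left (by norm_num) h1
    · have hne : ¬ Even i := Nat.not_even_iff_odd.mpr ho
      refine ⟨i, ?_, ?_, hipos, le_rfl, ?_, fun h => absurd h hne⟩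
      · unfold blockDim
        rw [← hi, if_neg hne]
      · rw [hc, if_neg hne]
      · exact Nat.Coprime.dvd_of_dvd_mul_left (Nat.coprime_two_right.mpr ho) hdvdj
  have hdj : 0 < d - j := by omega
  have hcd : c' ≤ d - j := Nat.le_of_dvd hdj hdvd
  have hcd' : c' ≤ d := by omega
  -- the basic element
  obtain ⟨T₀, h1, h2, h3⟩ := Cfsg.Agent.S5961.exists_block_elt hq hr2 hrF hb
  have hd' : d = d / c' * c' + d % c' := (Nat.div_add_mod' d c').symm
  have hspos : 0 < d / c' := Nat.div_pos hcd' hcpos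
  have hm₀ : d % c' < c' := Nat.mod_lt _ hcpos
  obtain ⟨x, hx, hxf⟩ := Cfsg.Agent.S5961.exists_x_blocks hd' T₀ h1 h2 h3
  have hsc0 : 0 < d / c' * c' := Nat.mul_pos hspos hcpos
  have hfixeq : finrank F (fixS (Matrix.toLin' (x : Matrix (Fin d ⊕ Fin d) (Fin d ⊕ Fin d) F)) ⊤) = 2 * (d % c') := by
    have e1 : d / c' * (2 * c') = 2 * (d / c' * c') := by ring
    rw [e1] at hxf
    omega
  have hns := not_scalar_of_fix hr hr2 hd x hx (by omega)
  obtain ⟨W, hW1, hW2, hW3⟩ := H x hx hns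
  obtain ⟨a, b, hab, hbm⟩ := bound_basic hq hrF halt hnd (hisoX x) (hTrX x hx) (m₀ := d % c') hfixeq.le hW1 hW2
  rw [hW3, ← hi] at hab
  have hbi : b < i := by omega
  have hmod : m % i = b := by
    rw [hab, Nat.mul_add_mod_self_right, Nat.mod_eq_of_lt hbi]
  have him : i ≤ m := by
    by_contra hlt
    rw [not_le] at hlt
    have ha0 : a = 0 := by
      by_contra hne
      have : 1 * i ≤ a * i := Nat.mul_le_mul_right _ (Nat.pos_of_ne_zero hne)
      omega
    rw [ha0, zero_mul, zero_add] at hab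
    obtain ⟨k, hk⟩ := hdvd
    have hdk : d = j + c' * k := by omega
    have h5 : (j + c' * k) % c' = j := by
      rw [Nat.add_mul_mod_self_left, Nat.mod_eq_of_lt (by omega)]
    rw [← hdk] at h5
    omega
  have h2part : 2 * (m % i) ≤ (2 * d) % c := by
    rw [hmod, hcc, Nat.mul_mod_mul_left]
    omega
  refine ⟨him, h2part, ?_⟩
  rcases Nat.even_or_odd i with he | ho
  swap
  · exact Or.inl ho
  right
  have hi2 : i = 2 * c' := hev he
  have hi2' : orderOf (q : ZMod r) = 2 * c' := by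
    rw [← hi]
    exact hi2
  have hcard : (Fs F r).card * i = r - 1 := by
    rw [hi]
    exact card_Fs hq hrF
  have ht : (r - 1) / i = (Fs F r).card := by
    rw [← hcard]
    exact Nat.mul_div_cancel _ hipos
  have hn' : (2 * d) / i = d / c' := by
    rw [hi2]
    exact Nat.mul_div_mul_left _ _ (by norm_num)
  rw [ht, hn']
  set t := (Fs F r).card with htdef
  have htpos : 0 < t := by
    rcases Nat.eq_zero_or_pos t with h0 | h0
    · rw [h0, zero_mul] at hcard
      have := hr.two_le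
      omega
    · exact h0
  obtain ⟨h₁, hh₁⟩ := Finset.card_pos.mp htpos
  have hcarderase : ((Fs F r).erase h₁).card = t - 1 := Finset.card_erase_of_mem hh₁
  by_contra hcon
  rcases lt_or_ge (d / c') t with hlt | hge
  · obtain ⟨S, hSsub, hScard⟩ := Finset.exists_subset_card_eq (s := (Fs F r).erase h₁) (n := d / c' - 1) (by rw [hcarderase]; omega)
    have hS : ∀ h ∈ S, h ∈ Fs F r ∧ h ≠ h₁ := fun h hh => by
      have := hSsub hh
      rw [Finset.mem_erase] at this
      exact ⟨this.2, this.1⟩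
    have hde : d = (1 + S.card) * c' + d % c' := by
      rw [hScard, show 1 + (d / c' - 1) = d / c' by omega]
      exact hd'
    obtain ⟨y, hy, hy1, hy2, hy3⟩ := exists_x_types hq hr2 hrF hi2' hcpos hh₁ S hS hde
    have hns' := not_scalar_of_fix hr hr2 hd y hy (by omega)
    obtain ⟨W', hW1', hW2', hW3'⟩ := H y hy hns'
    obtain ⟨a', b', hab', ha', hb'⟩ := bound_types hq hrF halt hnd (hisoX y) (hTrX y hy) hi2' hcpos hh₁ hy1 hy2 hy3 hW1' hW2'
    have ha0 : a' = 0 := by omega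
    rw [hW3', ha0, zero_mul, zero_add] at hab'
    omega
  · obtain ⟨s, hts, hsn, hse, hns1⟩ : ∃ s, t ≤ s ∧ s ≤ d / c' ∧ Even (s - t) ∧ d / c' ≤ s + 1 := by
      rcases Nat.even_or_odd (d / c' - t) with h | h
      · exact ⟨d / c', hge, le_rfl, h, by omega⟩
      · have hpos : 0 < d / c' - t := h.pos
        refine ⟨d / c' - 1, by omega, by omega, ?_, by omega⟩
        obtain ⟨k, hk⟩ := h
        exact ⟨k, by omega⟩
    have hsc : s * c' ≤ d / c' * c' := Nat.mul_le_mul_right _ hsn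
    have hde : d = ((s - t + 1) + ((Fs F r).erase h₁).card) * c' + (d - s * c') := by
      rw [hcarderase, show s - t + 1 + (t - 1) = s by omega]
      omega
    have hm₀lt : d - s * c' < 2 * c' := by
      have h6 : d / c' * c' ≤ (s + 1) * c' := Nat.mul_le_mul_right _ hns1
      have e : (s + 1) * c' = s * c' + c' := by ring
      omega
    have hS : ∀ h ∈ (Fs F r).erase h₁, h ∈ Fs F r ∧ h ≠ h₁ := fun h hh => by
      rw [Finset.mem_erase] at hh
      exact ⟨hh.2, hh.1⟩
    obtain ⟨y, hy, hy1, hy2, hy3⟩ := exists_x_types hq hr2 hrF hi2' hcpos hh₁ _ hS hde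
    have hspos' : 0 < s * c' := Nat.mul_pos (by omega) hcpos
    have hns' := not_scalar_of_fix hr hr2 hd y hy (by omega)
    obtain ⟨W', hW1', hW2', hW3'⟩ := H y hy hns'
    obtain ⟨a', b', hab', ha', hb'⟩ := bound_types hq hrF halt hnd (hisoX y) (hTrX y hy) hi2' hcpos hh₁ hy1 hy2 hy3 hW1' hW2'
    rw [hW3', ← hi2] at hab'
    have hdiv : m / i = a' := by
      rw [hab', add_comm, Nat.add_mul_div_right _ _ hipos, Nat.div_eq_of_lt (by omega), zero_add]
    obtain ⟨k, hk⟩ := hse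
    apply hcon
    rw [hdiv]
    omega

end Cfsg.Agent.Lib.SpTI
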