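import Mathlib
import Cfsg.Agent.Lib.SpTI.Bound
import Cfsg.Agent.Lib.SpGU.Bad

/-!
# Totally isotropic subspaces and elements of order two modulo scalars
-/

set_option autoImplicit false
set_option linter.unusedSimpArgs false
set_option linter.unusedVariables false
set_option linter.unusedSectionVars false

namespace Cfsg.Agent.Lib.SpTI

open Matrix Module Polynomial Cfsg Cfsg.Agent.Lib.IsomBlock Cfsg.Agent.Lib.SympWitt Cfsg.Agent.Lib.SympForm

section abstractForm

universe u

variable {F : Type*} [Field F] {V : Type u} [AddCommGroup V] [Module F V] [FiniteDimensional F V]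
  {B : V →ₗ[F] V →ₗ[F] F} {T : V →ₗ[F] V}

/-- Subspaces of every dimension. -/
theorem exists_sub_finrank (U : Submodule F V) {m : ℕ} (hm : m ≤ finrank F U) : ∃ W ≤ U, finrank F W = m := by
  let b := Module.finBasis F U
  let f : Fin m → V := fun i => (b (Fin.castLE hm i) : V)
  have hf : LinearIndependent F f :=
    (b.linearIndependent.comp _ (Fin.castLE_injective hm)).map' U.subtype (Submodule.ker_subtype U)
  refine ⟨Submodule.span F (Set.range f), ?_, ?_⟩
  · rw [Submodule.span_le]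
    rintro _ ⟨i, rfl⟩
    exact (b _).2
  · rw [finrank_span_eq_card hf]
    simp

/-- Nondegenerate subspaces have even dimension. -/
theorem finrank_even_of_nd (halt : ∀ v, B v v = 0) {U : Submodule F V} (hU : NDOn B U) : Even (finrank F U) := by
  let B' : U →ₗ[F] U →ₗ[F] F := B.compl₁₂ U.subtype U.subtype
  obtain ⟨m, s, -⟩ := Cfsg.Agent.Lib.SympBasis.exists_symp_basis B' (fun v => halt v)
    (fun v hv => Subtype.ext (hU v v.2 fun w hw => hv ⟨w, hw⟩))
  rw [Module.finrank_eq_card_basis s]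
  simp [Nat.even_mul]

/-- Involutions. -/
theorem exists_ti_invol (h2 : (2 : F) ≠ 0) (halt : ∀ v, B v v = 0) (hnd : NDOn B ⊤) (hiso : ∀ u v, B (T u) (T v) = B u v)
    (hT2 : T ^ 2 = 1) {m : ℕ} (hm : 2 * m ≤ finrank F V) : ∃ W : Submodule F V, InvOn T W ∧ TI B W ∧ finrank F W = m := by
  have hB : GoodForm B := Or.inl halt
  have hr : ((2 : ℕ) : F) ≠ 0 := by exact_mod_cast h2
  have hT2' : (-T) ^ 2 = 1 := by
    rw [neg_sq]
    exact hT2
  have hiso' : ∀ u v, B ((-T) u) ((-T) v) = B u v := by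
    intro u v
    simp [hiso]
  have hTT : ∀ v, T (T v) = v := by
    intro v
    have := LinearMap.congr_fun hT2 v
    rw [pow_two] at this
    exact this
  have hP := nd_fixS hB hiso two_ne_zero hr hT2 hnd (fun _ _ => trivial)
  have hM := nd_fixS hB hiso' two_ne_zero hr hT2' hnd (fun _ _ => trivial)
  have hMv : ∀ v ∈ fixS (-T) ⊤, T v = -v := by
    intro v hv
    have := (mem_fixS.mp hv).2
    rw [LinearMap.neg_apply] at this
    exact neg_eq_iff_eq_neg.mp this
  have horth : ∀ u ∈ fixS T ⊤, ∀ v ∈ fixS (-T) ⊤, B u v = 0 := by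
    intro u hu v hv
    have h1 := (mem_fixS.mp hu).2
    have h4 := hiso u v
    rw [h1, hMv v hv, map_neg] at h4
    have h5 : (2 : F) * B u v = 0 := by linear_combination -h4
    exact (mul_eq_zero.mp h5).resolve_left h2
  have hsup : fixS T ⊤ ⊔ fixS (-T) ⊤ = ⊤ := by
    rw [eq_top_iff]
    intro v _
    have h1 : v = (2 : F)⁻¹ • (v + T v) + (2 : F)⁻¹ • (v - T v) := by
      rw [← smul_add]
      have : v + T v + (v - T v) = (2 : F) • v := by
        rw [two_smul]
        abel
      rw [this, smul_smul, inv_mul_cancel₀ h2, one_smul]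
    rw [h1]
    apply Submodule.add_mem_sup
    · rw [mem_fixS]
      refine ⟨trivial, ?_⟩
      rw [map_smul, map_add, hTT, add_comm]
    · rw [mem_fixS]
      refine ⟨trivial, ?_⟩
      rw [map_smul, LinearMap.neg_apply, map_sub, hTT, neg_sub]
  have hdim : finrank F (fixS T ⊤) + finrank F (fixS (-T) ⊤) = finrank F V := by
    have := finrank_sup_orth hB hP horth
    rw [hsup, finrank_top] at this
    exact this.symm
  obtain ⟨a, ha⟩ := finrank_even_of_nd halt hP
  obtain ⟨b, hb⟩ := finrank_even_of_nd halt hM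
  obtain ⟨W₁, hW₁, hW₁t, hW₁f⟩ := exists_ti_sub halt (min m a) _ hP (by omega)
  obtain ⟨W₂, hW₂, hW₂t, hW₂f⟩ := exists_ti_sub halt (m - min m a) _ hM (by omega)
  refine ⟨W₁ ⊔ W₂, inv_sup ?_ ?_, ti_sup halt hW₁t hW₂t fun u hu v hv => horth u (hW₁ hu) v (hW₂ hv), ?_⟩
  · intro w hw
    rw [(mem_fixS.mp (hW₁ hw)).2]
    exact hw
  · intro w hw
    rw [hMv w (hW₂ hw)]
    exact W₂.neg_mem hw
  · have h3 := Submodule.finrank_sup_add_finrank_inf_eq W₁ W₂
    have h4 : W₁ ⊓ W₂ = ⊥ := by
      rw [eq_bot_iff]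
      rintro v ⟨hv1, hv2⟩
      have h5 := (mem_fixS.mp (hW₁ hv1)).2
      have h6 := hMv v (hW₂ hv2)
      rw [h5] at h6
      have h7 : (2 : F) • v = 0 := by
        rw [two_smul]
        nth_rw 1 [h6]
        simp
      exact (smul_eq_zero.mp h7).resolve_left h2
    rw [h4, finrank_bot, add_zero, hW₁f, hW₂f] at h3
    omega

/-- Square root of `-1` in the field. -/
theorem exists_ti_eigen (h2 : (2 : F) ≠ 0) (halt : ∀ v, B v v = 0) (hnd : ∀ v, (∀ w, B v w = 0) → v = 0) (hiso : ∀ u v, B (T u) (T v) = B u v)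
    (hT2 : ∀ v, T (T v) = -v) {c : F} (hc : c * c = -1) {m : ℕ} (hm : 2 * m ≤ finrank F V) :
    ∃ W : Submodule F V, InvOn T W ∧ TI B W ∧ finrank F W = m := by
  have hmem : ∀ (c' : F) (v : V), v ∈ LinearMap.ker (T - c' • LinearMap.id) ↔ T v = c' • v := by
    intro c' v
    simp [sub_eq_zero]
  have hTI : ∀ c' : F, c' * c' = -1 → TI B (LinearMap.ker (T - c' • LinearMap.id)) := by
    intro c' hc' u hu v hv
    have h3 := hiso u v
    rw [(hmem c' u).mp hu, (hmem c' v).mp hv] at h3
    simp only [map_smul, LinearMap.smul_apply, smul_eq_mul] at h3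
    have h5 : (2 : F) * B u v = 0 := by
      linear_combination (-1 : F) * h3 + (B u v) * hc'
    exact (mul_eq_zero.mp h5).resolve_left h2
  have hc0 : c ≠ 0 := by
    rintro rfl
    have : (1 : F) = 0 := by linear_combination hc
    exact one_ne_zero this
  have hc2 : (2 : F) * c ≠ 0 := mul_ne_zero h2 hc0
  have hsup : LinearMap.ker (T - c • LinearMap.id) ⊔ LinearMap.ker (T - (-c) • LinearMap.id) = ⊤ := by
    rw [eq_top_iff]
    intro v _
    have h1 : v = ((2 : F) * c)⁻¹ • (T v + c • v) + (-((2 : F) * c)⁻¹) • (T v - c • v) := by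
      have : ((2 : F) * c)⁻¹ • (T v + c • v) + (-((2 : F) * c)⁻¹) • (T v - c • v) = ((2 : F) * c)⁻¹ • (((2 : F) * c) • v) := by
        rw [neg_smul, ← sub_eq_add_neg, ← smul_sub]
        congr 1
        rw [mul_smul, two_smul]
        abel
      rw [this, smul_smul, inv_mul_cancel₀ hc2, one_smul]
    rw [h1]
    apply Submodule.add_mem_sup
    · apply Submodule.smul_mem
      rw [hmem, map_add, map_smul, hT2, smul_add, smul_smul, hc]
      simp
      abel
    · apply Submodule.smul_mem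
      rw [hmem, map_sub, map_smul, hT2, smul_sub, smul_smul, neg_mul, hc]
      simp
      abel
  have h3 := Submodule.finrank_add_le_finrank_add_finrank (LinearMap.ker (T - c • LinearMap.id)) (LinearMap.ker (T - (-c) • LinearMap.id))
  rw [hsup, finrank_top] at h3
  have h4 := ti_bound halt hnd (hTI (-c) (by rw [neg_mul_neg, hc]))
  obtain ⟨W, hWP, hWf⟩ := exists_sub_finrank (LinearMap.ker (T - c • LinearMap.id)) (m := m) (by omega)
  refine ⟨W, ?_, (hTI c hc).mono hWP, hWf⟩
  intro w hw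
  rw [(hmem c w).mp (hWP hw)]
  exact W.smul_mem _ hw

/-- No square root of `-1` in the field. -/
theorem exists_ti_nonsq [Fintype F] (hns : ∀ a : F, a * a ≠ -1) (halt : ∀ v, B v v = 0) (hnd : ∀ v, (∀ w, B v w = 0) → v = 0)
    (hiso : ∀ u v, B (T u) (T v) = B u v) (hT2 : ∀ v, T (T v) = -v) :
    ∀ e : ℕ, 4 * e ≤ finrank F V → ∃ W : Submodule F V, InvOn T W ∧ TI B W ∧ finrank F W = 2 * e := by
  have hanti := anti_of_alt halt
  have hnorm : ∀ a b : F, a * a + b * b = 0 → a = 0 ∧ b = 0 := by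
    intro a b hab
    have hb : b = 0 := by
      by_contra hb
      apply hns (a / b)
      field_simp
      linear_combination hab
    subst hb
    have : a * a = 0 := by simpa using hab
    exact ⟨mul_self_eq_zero.mp this, rfl⟩
  have hN : LinearMap.BilinForm.Nondegenerate (B : LinearMap.BilinForm F V) := by
    constructor
    · intro u hu
      exact hnd u hu
    · intro u hu
      apply hnd u
      intro w
      rw [hanti, hu w, neg_zero]
  intro e
  induction e with
  | zero =>
    intro _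
    refine ⟨⊥, inv_bot, ti_bot, by simp⟩
  | succ e ih =>
    intro hle
    obtain ⟨W, hWinv, hWti, hWf⟩ := ih (by omega)
    -- the perpendicular space
    set P := perp B W with hP
    have hPf : finrank F P = finrank F V - finrank F W := by
      have h1 := LinearMap.BilinForm.finrank_orthogonal hN W
      exact h1
    have hWP : W ≤ P := fun v hv w hw => hWti w hw v hv
    have hPinv : InvOn T P := by
      intro v hv w hw
      have h1 : w = T (-T w) := by
        rw [map_neg, hT2, neg_neg]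
      rw [h1, hiso, map_neg, LinearMap.neg_apply, hv _ (hWinv w hw), neg_zero]
    -- a complement
    obtain ⟨C', hC'⟩ := Submodule.exists_isCompl (W.comap P.subtype)
    have hW' : finrank F (W.comap P.subtype) = finrank F W := (Submodule.comapSubtypeEquivOfLe hWP).finrank_eq
    have hC'f := Submodule.finrank_add_eq_of_isCompl hC'
    set C : Submodule F V := C'.map P.subtype with hC
    have hCf : finrank F C = finrank F C' := Submodule.finrank_map_subtype_eq _ _
    obtain ⟨⟨v, hvC⟩, hv0, hv⟩ := exists_common_zero (V := C) (κ := Unit) (fun _ => (B.compl₂ T).domRestrict₁₂ C C)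
      (by
        simp only [Fintype.card_unit]
        omega)
    have hv0' : v ≠ 0 := fun h0 => hv0 (Subtype.ext h0)
    have hvT : B v (T v) = 0 := hv ()
    obtain ⟨v₀, hv₀, rfl⟩ := hvC
    have hvP : (v₀ : V) ∈ P := v₀.2
    have hvW : (v₀ : V) ∉ W := by
      intro hmem
      have h1 : v₀ ∈ (W.comap P.subtype ⊓ C') := ⟨hmem, hv₀⟩
      rw [hC'.inf_eq_bot] at h1
      apply hv0'
      have h2 : v₀ = 0 := h1
      rw [h2]
      rfl
    set v : V := (v₀ : V) with hvdef
    have hvT' : B v (T v) = 0 := hvT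
    have hTvP : T v ∈ P := hPinv v hvP
    have hkey : ∀ a b : F, a • v + b • T v ∈ W → a = 0 ∧ b = 0 := by
      intro a b hy
      have h1 : a • (a • v + b • T v) - b • T (a • v + b • T v) ∈ W :=
        W.sub_mem (W.smul_mem _ hy) (W.smul_mem _ (hWinv _ hy))
      have h2 : a • (a • v + b • T v) - b • T (a • v + b • T v) = (a * a + b * b) • v := by
        simp only [map_add, map_smul, hT2, smul_add, smul_smul, add_smul, smul_neg]
        rw [mul_comm a b]
        abel
      rw [h2] at h1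
      apply hnorm
      by_contra hne
      exact hvW ((W.smul_mem_iff hne).mp h1)
    let L : Submodule F V := Submodule.span F (Set.range ![v, T v])
    have hmemL : ∀ y ∈ L, ∃ a b : F, y = a • v + b • T v := by
      intro y hy
      simp only [L, Matrix.range_cons, Matrix.range_empty, Set.union_empty, Set.singleton_union] at hy
      obtain ⟨a, b, rfl⟩ := Submodule.mem_span_pair.mp hy
      exact ⟨a, b, rfl⟩
    have hvL : v ∈ L := Submodule.subset_span ⟨0, rfl⟩
    have hTvL : T v ∈ L := Submodule.subset_span ⟨1, rfl⟩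
    have hli : LinearIndependent F ![v, T v] := by
      rw [LinearIndependent.pair_iff]
      intro a b hab
      apply hkey
      rw [hab]
      exact W.zero_mem
    have hLf : finrank F L = 2 := by
      have := finrank_span_eq_card hli
      simpa using this
    have hLinv : InvOn T L := by
      intro y hy
      obtain ⟨a, b, rfl⟩ := hmemL y hy
      simp only [map_add, map_smul, hT2]
      exact L.add_mem (L.smul_mem _ hTvL) (L.smul_mem _ (L.neg_mem hvL))
    have hLP : L ≤ P := by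
      apply Submodule.span_le.mpr
      rintro _ ⟨i, rfl⟩
      fin_cases i
      · exact hvP
      · exact hTvP
    have hLti : TI B L := by
      intro y hy y' hy'
      obtain ⟨a, b, rfl⟩ := hmemL y hy
      obtain ⟨a', b', rfl⟩ := hmemL y' hy'
      simp only [map_add, map_smul, LinearMap.add_apply, LinearMap.smul_apply, halt, smul_eq_mul, mul_zero, add_zero, zero_add, hvT']
      rw [hanti (T v) v, hvT']
      simp
    refine ⟨W ⊔ L, inv_sup hWinv hLinv, ti_sup halt hWti hLti (fun u hu w hw => hLP hw u hu), ?_⟩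
    have h3 := Submodule.finrank_sup_add_finrank_inf_eq W L
    have h4 : W ⊓ L = ⊥ := by
      rw [eq_bot_iff]
      rintro y ⟨hy1, hy2⟩
      obtain ⟨a, b, rfl⟩ := hmemL y hy2
      obtain ⟨rfl, rfl⟩ := hkey a b hy1
      simp
    rw [h4, finrank_bot, add_zero, hWf, hLf] at h3
    omega

end abstractForm

variable {F : Type*} [Field F] [Fintype F] {d : ℕ}

/-- The backward direction for `r = 2`. -/
theorem backward_two {q : ℕ} (hq : Fintype.card F = q) (h2 : (2 : F) ≠ 0) (hd : 0 < d) {m : ℕ} (hmd : m ≤ d) (hcond : Even m ∨ q % 4 = 1)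
    (x : symplecticGroup (Fin d) F) {z : F}
    (hz : ((x ^ 2 : symplecticGroup (Fin d) F) : Matrix (Fin d ⊕ Fin d) (Fin d ⊕ Fin d) F) = z • (1 : Matrix (Fin d ⊕ Fin d) (Fin d ⊕ Fin d) F)) :
    ∃ W : Submodule F (Fin d ⊕ Fin d → F), finrank F W = m ∧ (∀ u ∈ W, ∀ v ∈ W, sympForm d F u v = 0) ∧
      W.map (Matrix.toLin' (x : Matrix (Fin d ⊕ Fin d) (Fin d ⊕ Fin d) F)) ≤ W := by
  have hz2 : z * z = 1 := Cfsg.Agent.S5961.scalar_sq hd (x ^ 2) z hz
  set T := Matrix.toLin' (x : Matrix (Fin d ⊕ Fin d) (Fin d ⊕ Fin d) F) with hT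
  have hTa : ∀ v, T v = (x : Matrix (Fin d ⊕ Fin d) (Fin d ⊕ Fin d) F) *ᵥ v := fun v => Matrix.toLin'_apply _ v
  have hTT : ∀ v, T (T v) = z • v := by
    intro v
    rw [hTa, hTa, Matrix.mulVec_mulVec]
    have h1 : (x : Matrix (Fin d ⊕ Fin d) (Fin d ⊕ Fin d) F) * (x : Matrix (Fin d ⊕ Fin d) (Fin d ⊕ Fin d) F) = z • 1 := by
      rw [← hz, pow_two]
      rfl
    rw [h1, Matrix.smul_mulVec, Matrix.one_mulVec]
  have hiso : ∀ u v, sympB d F (T u) (T v) = sympB d F u v := by
    intro u v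
    rw [sympB_apply, sympB_apply, hTa, hTa]
    exact (mem_symplecticGroup_iff_preserves _).1 x.2 u v
  have halt : ∀ v, sympB d F v v = 0 := fun v => sympForm_self v
  have hnd : ∀ v, (∀ w, sympB d F v w = 0) → v = 0 := fun v hv => Cfsg.Agent.S5983.symp_nd v hv
  have hfin : finrank F (Fin d ⊕ Fin d → F) = 2 * d := Cfsg.Agent.S5983.finrank_V
  suffices H : ∃ W : Submodule F (Fin d ⊕ Fin d → F), InvOn T W ∧ TI (sympB d F) W ∧ finrank F W = m by
    obtain ⟨W, h1, h3, h4⟩ := H
    exact ⟨W, h4, h3, map_le_of_inv h1⟩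
  rcases mul_self_eq_one_iff.mp hz2 with rfl | rfl
  · refine exists_ti_invol h2 halt (fun v _ hv => hnd v fun w => hv w trivial) hiso ?_ (by rw [hfin]; omega)
    apply LinearMap.ext
    intro v
    rw [pow_two]
    show T (T v) = v
    rw [hTT, one_smul]
  · have hTT' : ∀ v, T (T v) = -v := by
      intro v
      rw [hTT, neg_smul, one_smul]
    by_cases hs : IsSquare (-1 : F)
    · obtain ⟨c, hc⟩ := hs
      exact exists_ti_eigen h2 halt hnd hiso hTT' hc.symm (by rw [hfin]; omega)
    · have hq3 : ¬ q % 4 = 1 := by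
        intro h
        apply hs
        rw [FiniteField.isSquare_neg_one_iff, hq, h]
        norm_num
      obtain ⟨e, he⟩ := hcond.resolve_right hq3
      have hns : ∀ a : F, a * a ≠ -1 := fun a ha => hs ⟨a, ha.symm⟩
      obtain ⟨W, h3, h4, h5⟩ := exists_ti_nonsq hns halt hnd hiso hTT' e (by rw [hfin]; omega)
      exact ⟨W, h3, h4, by omega⟩

/-- The forward direction for `r = 2`. -/
theorem forward_two {q : ℕ} (hq : Fintype.card F = q) (h2 : (2 : F) ≠ 0) (hd : 0 < d) {m : ℕ} (hq4 : q % 4 ≠ 1)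
    (H : ∀ x : symplecticGroup (Fin d) F,
      (∃ z : F, ((x ^ 2 : symplecticGroup (Fin d) F) : Matrix (Fin d ⊕ Fin d) (Fin d ⊕ Fin d) F) = z • (1 : Matrix (Fin d ⊕ Fin d) (Fin d ⊕ Fin d) F)) →
      (∀ z : F, (x : Matrix (Fin d ⊕ Fin d) (Fin d ⊕ Fin d) F) ≠ z • (1 : Matrix (Fin d ⊕ Fin d) (Fin d ⊕ Fin d) F)) →
      ∃ W : Submodule F (Fin d ⊕ Fin d → F), finrank F W = m ∧ W.map (Matrix.toLin' (x : Matrix (Fin d ⊕ Fin d) (Fin d ⊕ Fin d) F)) ≤ W) :
    Even m := by
  have hodd : q % 2 = 1 := by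
    rw [← hq]
    apply FiniteField.odd_card_of_char_ne_two
    intro h
    apply h2
    have := ringChar.Nat.cast_ringChar (R := F)
    rw [h] at this
    exact_mod_cast this
  have hq3 : q % 4 = 3 := by omega
  have hns : ¬ IsSquare (-1 : F) := by
    rw [FiniteField.isSquare_neg_one_iff, hq, hq3]
    simp
  let x : symplecticGroup (Fin d) F := ⟨Matrix.J (Fin d) F, SymplecticGroup.J_mem (Fin d) F⟩
  have hxx : (x : Matrix (Fin d ⊕ Fin d) (Fin d ⊕ Fin d) F) * (x : Matrix (Fin d ⊕ Fin d) (Fin d ⊕ Fin d) F) = -1 := Matrix.J_squared (Fin d) F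
  have hx2 : ((x ^ 2 : symplecticGroup (Fin d) F) : Matrix (Fin d ⊕ Fin d) (Fin d ⊕ Fin d) F) = (-1 : F) • (1 : Matrix (Fin d ⊕ Fin d) (Fin d ⊕ Fin d) F) := by
    rw [pow_two]
    show (x : Matrix (Fin d ⊕ Fin d) (Fin d ⊕ Fin d) F) * (x : Matrix (Fin d ⊕ Fin d) (Fin d ⊕ Fin d) F) = _
    rw [hxx]
    simp
  have hnsc : ∀ z : F, (x : Matrix (Fin d ⊕ Fin d) (Fin d ⊕ Fin d) F) ≠ z • (1 : Matrix (Fin d ⊕ Fin d) (Fin d ⊕ Fin d) F) := by
    intro z hz
    rw [hz] at hxx
    have h3 := congrFun (congrFun hxx (Sum.inl ⟨0, hd⟩)) (Sum.inl ⟨0, hd⟩)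
    simp at h3
    exact hns ⟨z, h3.symm⟩
  obtain ⟨W, hW1, hW2⟩ := H x ⟨-1, hx2⟩ hnsc
  have hT2 : (Matrix.toLin' (x : Matrix (Fin d ⊕ Fin d) (Fin d ⊕ Fin d) F)) ^ 2 = (-1 : F) • 1 := by
    rw [Cfsg.Agent.Lib.SpGU.toLin_pow, pow_two, hxx]
    apply LinearMap.ext
    intro v
    simp [Matrix.toLin'_apply]
  have h3 := Cfsg.Agent.Lib.ElusiveCore.dvd_finrank_of_inv (r := 2) Nat.prime_two hT2 (fun b hb => hns ⟨b, by rw [← hb, pow_two]⟩) hW2
  rw [hW1] at h3
  exact (even_iff_two_dvd).mpr h3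

end Cfsg.Agent.Lib.SpTI
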